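import Cfsg.Agent.H23.BRb

/-! The product of the Griess algebra; the axes and their eigenspaces. -/

set_option autoImplicit false
set_option linter.unusedSectionVars false
open Cfsg H79 H17.Gr Matrix
open H71.Gr hiding GG
open scoped Classical

namespace H23.Om
attribute [-simp] Fintype.sum_option

variable {F : Type} [Field F] [Good F]

/-- the invariant trilinear form -/
noncomputable def tl (a b d : B F) : F :=
  512 * trace (a.A * b.A * d.A) + 8 * ∑ r, (qA a.A r.v * (b.x r * d.x r) +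
    qA b.A r.v * (a.x r * d.x r) + qA d.A r.v * (a.x r * b.x r)) + 64 * tri a.x b.x d.x +
    (ip b.w (LL a d.w) + ip a.w (LL b d.w) + ip a.w (LL d b.w))

theorem cub_tl (b : B F) : cub b = tl b b b := by
  rw [cub_eq, tl]
  simp only [Finset.sum_add_distrib, sq]
  ring

theorem tl_swap (a b d : B F) : tl a b d = tl b a d := by
  have h : trace (a.A * b.A * d.A) = trace (b.A * a.A * d.A) := by
    rw [← trace_transpose, transpose_mul, transpose_mul, a.A_symm, b.A_symm, d.A_symm,
      trace_mul_comm]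
  rw [tl, tl, h, tri_swap, ip_LL_symm d a.w]
  simp only [Finset.sum_add_distrib, mul_comm (a.x _)]
  ring

theorem tl_cyc (a b d : B F) : tl a b d = tl b d a := by
  rw [tl, tl, ← trace_mul_cycle b.A, tri_cyc, ip_LL_symm b a.w, ip_LL_symm d a.w]
  simp only [Finset.sum_add_distrib, mul_comm (a.x _)]
  ring

theorem qA_add (A A' : MM F) (v : V) : qA (A + A') v = qA A v + qA A' v := by
  rw [qA, add_mulVec, dotProduct_add]; rfl
theorem qA_smul (c : F) (A : MM F) (v : V) : qA (c • A) v = c * qA A v := by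
  rw [qA, smul_mulVec, dotProduct_smul]; rfl
theorem LL_add (a b : B F) (w : WW F) : LL (a + b) w = LL a w + LL b w := by
  simp only [LL, LinearMap.add_apply, LinearMap.sum_apply, LinearMap.smul_apply, TT_apply, hat,
    B.add_A, B.add_x, Pi.add_apply, add_smul, Finset.sum_add_distrib, trace_add, mul_add, smul_add,
    Matrix.mul_add]
  abel
theorem LL_smul (c : F) (a : B F) (w : WW F) : LL (c • a) w = c • LL a w := by
  simp only [LL, LinearMap.add_apply, LinearMap.sum_apply, LinearMap.smul_apply, TT_apply, hat,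
    B.smul_A, B.smul_x, Pi.smul_apply, smul_eq_mul, trace_smul, smul_add, Matrix.mul_add,
    Matrix.mul_smul, smul_smul, Finset.smul_sum, mul_comm c, mul_assoc]
theorem ip_smul_left (c : F) (u w : WW F) : ip (c • u) w = c * ip u w := by
  simp only [ip, transpose_smul, Matrix.smul_mul, trace_smul, smul_eq_mul]
theorem ip_smul_right (c : F) (u w : WW F) : ip u (c • w) = c * ip u w := by
  simp only [ip, Matrix.mul_smul, trace_smul, smul_eq_mul]
theorem tri_smul (c : F) (x y z : Sh → F) : tri (c • x) y z = c * tri x y z := by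
  simp only [tri, Finset.mul_sum, Pi.smul_apply, smul_eq_mul]
  refine Finset.sum_congr rfl fun s _ => Finset.sum_congr rfl fun r _ =>
    Finset.sum_congr rfl fun t _ => ?_
  split_ifs <;> ring

theorem tl_add (a a' b d : B F) : tl (a + a') b d = tl a b d + tl a' b d := by
  simp only [tl, B.add_A, B.add_x, B.add_w, add_mul, mul_add, trace_add, qA_add, Pi.add_apply,
    tri_add, LL_add, ip_add_left, ip_add_right, Finset.sum_add_distrib]
  ring
theorem tl_smul (c : F) (a b d : B F) : tl (c • a) b d = c * tl a b d := by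
  simp only [tl, B.smul_A, B.smul_x, B.smul_w, smul_mul_assoc, trace_smul, qA_smul, Pi.smul_apply,
    tri_smul, LL_smul, ip_smul_left, ip_smul_right, smul_eq_mul, Finset.sum_add_distrib, mul_assoc,
    mul_left_comm _ c, ← Finset.mul_sum]
  ring
theorem tl_add₂ (a b b' d : B F) : tl a (b + b') d = tl a b d + tl a b' d := by
  rw [tl_swap, tl_add, tl_swap b, tl_swap b']
theorem tl_add₃ (a b d d' : B F) : tl a b (d + d') = tl a b d + tl a b d' := by
  rw [← tl_cyc, tl_add, tl_cyc d, tl_cyc d']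
theorem tl_smul₂ (c : F) (a b d : B F) : tl a (c • b) d = c * tl a b d := by
  rw [tl_swap, tl_smul, tl_swap b]
theorem tl_smul₃ (c : F) (a b d : B F) : tl a b (c • d) = c * tl a b d := by
  rw [← tl_cyc, tl_smul, tl_cyc d]

theorem tl_polar (a b d : B F) : 6 * tl a b d =
    cub (a + b + d) - cub (a + b) - cub (a + d) - cub (b + d) + cub a + cub b + cub d := by
  simp only [cub_tl, tl_add, tl_add₂, tl_add₃]
  rw [tl_cyc a d b, tl_cyc d b a, tl_cyc d a b, ← tl_cyc a b d, tl_swap b a d]
  ring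

theorem tl_inv (g : Mon F) (a b d : B F) : tl (g.1 a) (g.1 b) (g.1 d) = tl a b d := by
  refine mul_left_cancel₀ (show (6 : F) ≠ 0 by simpa using Good.ne (F := F) 6 (by decide) (by decide)) ?_
  simp only [tl_polar, ← map_add, g.2.2]

variable (F) in
/-- `bil` as a bilinear form -/
noncomputable def bilF : LinearMap.BilinForm F (B F) := LinearMap.mk₂ F bil bil_add bil_smul
  (fun a b c => by rw [bil_comm, bil_add, bil_comm b, bil_comm c])
  fun c a b => by rw [bil_comm, bil_smul, bil_comm b]; rfl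
theorem bilF_nd : (bilF F).Nondegenerate :=
  ⟨fun _ h => bil_ext fun d => (h d).trans (by simp [bil]),
    fun _ h => bil_ext fun d => (bil_comm _ _).trans ((h d).trans (by simp [bil]))⟩

variable (F) in
/-- `tl` as a trilinear map -/
noncomputable def tlF : B F →ₗ[F] B F →ₗ[F] Module.Dual F (B F) :=
  LinearMap.mk₂ F (fun a b => ⟨⟨tl a b, tl_add₃ a b⟩, fun c d => tl_smul₃ c a b d⟩)
    (fun a a' b => LinearMap.ext (tl_add a a' b)) (fun c a b => LinearMap.ext (tl_smul c a b))
    (fun a b b' => LinearMap.ext (tl_add₂ a b b')) fun c a b => LinearMap.ext (tl_smul₂ c a b)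

theorem n16384 : (16384 : F) ≠ 0 := by
  rw [show (16384 : F) = 2 ^ 14 by norm_num]; exact pow_ne_zero _ two_ne
theorem exists_prod {K M : Type*} [Field K] [AddCommGroup M] [Module K M] [FiniteDimensional K M]
    {β : LinearMap.BilinForm K M} (h : β.Nondegenerate) (T : M →ₗ[K] M →ₗ[K] Module.Dual K M)
    {c : K} (hc : c ≠ 0) : ∃ m : M →ₗ[K] M →ₗ[K] M, ∀ a b d, c * β (m a b) d = T a b d :=
  ⟨c⁻¹ • T.compr₂ (β.toDual h).symm.toLinearMap, fun a b d => by simp [hc]⟩

theorem exists_pd : ∃ m : B F →ₗ[F] B F →ₗ[F] B F, ∀ a b d, 16384 * bil (m a b) d = tl a b d :=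
  exists_prod (K := F) (M := B F) (β := bilF F) bilF_nd (tlF F) n16384
variable (F) in
/-- the product, normalised so that the axes `ax r` are idempotents -/
noncomputable def pd : B F →ₗ[F] B F →ₗ[F] B F := exists_pd.choose

theorem bil_pd (a b d : B F) : 16384 * bil (pd F a b) d = tl a b d :=
  exists_pd.choose_spec a b d
theorem pd_eq {a b c : B F} (h : ∀ d, tl a b d = 16384 * bil c d) : pd F a b = c :=
  bil_ext fun d => mul_left_cancel₀ n16384 ((bil_pd a b d).trans (h d))
theorem pd_comm (a b : B F) : pd F a b = pd F b a :=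
  pd_eq fun d => by rw [bil_pd, tl_swap]
theorem pd_assoc (a b d : B F) : bil (pd F a b) d = bil a (pd F b d) :=
  mul_left_cancel₀ n16384 (by rw [bil_comm a, bil_pd, bil_pd, tl_cyc])
theorem pd_inv (g : Mon F) (a b : B F) : pd F (g.1 a) (g.1 b) = g.1 (pd F a b) :=
  pd_eq fun d => by
    obtain ⟨d, rfl⟩ := g.1.surjective d
    rw [tl_inv, g.2.1, bil_pd]

/-! ### the axis of a minimal vector -/

variable (F) in
/-- `r rᵀ` -/
def Rm (r : Sh) : MM F := vecMulVec (cv F r.v) (cv F r.v)
variable (F) in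
/-- the axis of a minimal vector -/
noncomputable def ax (r : Sh) : B F := RR F r + (-32 : F) • XX F r

section axis
variable (r : Sh) (b : B F)

theorem ax_A : (ax F r).A = Rm F r := by simp [ax, Rm]
theorem ax_x : (ax F r).x = (-32 : F) • (XX F r).x := by simp [ax, RR]
theorem ax_w : (ax F r).w = 0 := by simp [ax, RR]
theorem Rm_symm : (Rm F r)ᵀ = Rm F r := transpose_vecMulVec _ _
theorem Rm_sq : Rm F r * Rm F r = (32 : F) • Rm F r := by
  rw [Rm, vecMulVec_mul_vecMulVec, cv_self, vecMulVec_smul]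
theorem trace_Rm : trace (Rm F r) = 32 := by rw [Rm, trace_vecMulVec, cv_self]
theorem qA_Rm (v : V) : qA (Rm F r) v = (dotInt r.v v : F) ^ 2 := by
  rw [qA, Rm, vecMulVec_mulVec, op_smul_eq_smul, dotProduct_smul, dotProduct_comm (cv F v), cv_dot,
    sq]; rfl
theorem Rm_mul_mul (A : MM F) : Rm F r * A * Rm F r = qA A r.v • Rm F r := by
  rw [Rm, vecMulVec_mul, vecMulVec_mul_vecMulVec, vecMulVec_smul, ← dotProduct_mulVec]; rfl

theorem tri_XX {x : Sh → F} (hx : ∀ s, x (-s) = x s) (y : Sh → F) : tri (XX F r).x x y =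
    ∑ u, ch (be u.v r.v) * (ex x (r.v + u.v) + ex x (r.v - u.v)) * y u := by
  rw [← tri_cyc, tri_IS]
  simp only [IS_ite]
  refine Finset.sum_congr rfl fun u _ => congrArg (· * y u) ?_
  simp only [IS]
  rw [sum_XX, ex_neg hx, add_comm u.v, show (-r).v = -r.v from rfl,
    show be u.v (-r.v) = be u.v r.v from congrArg (dl u.v) (ec_neg r.mem), neg_add, neg_neg, add_comm (-u.v), ← sub_eq_add_neg, mul_add]

/-- `16384` times the product with the axis -/
noncomputable def adx : B F := B.mk
  ((128 : F) • (Rm F r * b.A + b.A * Rm F r) - (256 * b.x r) • Rm F r)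
  (fun s => 8 * (dotInt r.v s.v : F) ^ 2 * b.x s - 256 * qA b.A r.v * (XX F r).x s -
    2048 * (ch (be s.v r.v) * (ex b.x (r.v + s.v) + ex b.x (r.v - s.v))))
  ((64 : F) • (b.w * Rm F r) + (256 : F) • b.w - (64 : F) • (rho F r.v * b.w * Mr F r.v))
  (by simp [transpose_sub, transpose_mul, Rm_symm, b.A_symm, add_comm])
  fun s => by
    rw [b.x_neg, (XX F r).x_neg, show (-s).v = -s.v from rfl, dotInt_neg_right, be, dl_neg s.mem,
      ← be, sub_neg_eq_add, ← sub_eq_add_neg, add_comm (ex _ _)]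
    simp

theorem LL_ax (w : WW F) : LL (ax F r) w =
    (64 : F) • (w * Rm F r) + (256 : F) • w - (64 : F) • (rho F r.v * w * Mr F r.v) := by
  refine ip_ext fun u => ?_
  rw [ip_LL, ax_A, ax_x]
  simp only [Pi.smul_apply, smul_eq_mul, mul_assoc, mul_comm ((XX F r).x _), ← Finset.mul_sum, sum_XX,
    show (-r).v = -r.v from rfl, rho_neg r.mem, Mr_neg, TT_apply, hat, trace_Rm, sub_eq_add_neg,
    ← neg_smul, ip_add_right, ip_smul_right, Matrix.mul_add, Matrix.mul_smul, Matrix.one_mul,
    Matrix.mul_one]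
  ring

theorem tl_ax (d : B F) : tl (ax F r) b d = bil (adx r b) d := by
  have h : trace (b.A * Rm F r * d.A) = trace (Rm F r * b.A * d.A) := by
    rw [← trace_transpose, transpose_mul, transpose_mul, Rm_symm, b.A_symm, d.A_symm,
      trace_mul_comm]
  have h1 : ∑ s, qA b.A s.v * (-32 * (XX F r).x s * d.x s) = -32 * qA b.A r.v * (2 * d.x r) := by
    simp only [← mul_assoc, mul_right_comm _ ((XX F r).x _), sum_XX, d.x_neg,
      show (-r).v = -r.v from rfl, qA_neg]
    ring
  have h2 : ∑ s, qA d.A s.v * (-32 * (XX F r).x s * b.x s) =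
      -64 * b.x r * trace (Rm F r * d.A) := by
    simp only [← mul_assoc, mul_right_comm _ ((XX F r).x _), sum_XX, b.x_neg,
      show (-r).v = -r.v from rfl, qA_neg]
    rw [H71.Gr.qA_eq, trace_mul_comm d.A, Rm]; ring
  have h3 : ∑ s, (XX F r).x s * d.x s = 2 * d.x r := by
    simp only [mul_comm ((XX F r).x _), sum_XX, d.x_neg, two_mul]
  rw [tl, ax_A, ax_x, ax_w, tri_smul, tri_XX r b.x_neg, ip_LL_symm, ip_comm, LL_ax]
  simp only [Finset.sum_add_distrib, Pi.smul_apply, smul_eq_mul, h1, h2, bil, adx, B.mk_A, B.mk_x,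
    B.mk_w, sub_mul, add_mul, smul_mul_assoc, trace_sub, trace_add, trace_smul, h]
  simp only [Finset.sum_sub_distrib, mul_assoc, ← Finset.mul_sum, h3, qA_Rm, ip, transpose_zero,
    Matrix.zero_mul, trace_zero]
  ring

theorem pd_ax : (16384 : F) • pd F (ax F r) b = adx r b :=
  bil_ext fun d => by rw [bil_smul, bil_pd, tl_ax]

theorem ax_neg : ax F (-r) = ax F r := by
  refine B.ext ?_ ?_ ?_
  · rw [ax_A, ax_A, Rm, show (-r).v = -r.v from rfl, cv_neg, neg_vecMulVec, vecMulVec_neg, neg_neg, Rm]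
  · rw [ax_x, ax_x]; funext s; simp [XX_x, or_comm]
  · rw [ax_w, ax_w]

theorem ax_act (n : Lift F) (h : n.ε r.1 = 0) : (Lift.act n).1 (ax F r) = ax F (n.ψ • r) := by
  refine B.ext ?_ (funext fun s => ?_) ?_
  · rw [Lift.act_apply, Lift.actL_A, ax_A, ax_A, Rm, Rm, Sh.v, Sh.v, Sh.smul_val, ← mat_mulVec,
      mul_vecMulVec, vecMulVec_mul, vecMul_transpose]
  · obtain ⟨s, rfl⟩ := (MulAction.toPerm n.ψ).surjective s
    rw [Lift.act_apply, MulAction.toPerm_apply, Lift.actL_x', ax_x, ax_x]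
    simp only [Pi.smul_apply, XX_x, ← Sh.smul_neg, smul_left_cancel_iff]
    split_ifs with e
    · rcases e with rfl | rfl
      · rw [h, ch_zero, one_mul]
      · rw [Sh.neg_val, Lift.ε_neg, h, ch_zero, one_mul]
    · simp
  · rw [Lift.act_apply, Lift.actL_w, ax_w, ax_w, Matrix.mul_zero, Matrix.zero_mul]

theorem ex_XX (v : V) : ex (XX F r).x v = if v = r.v ∨ v = -r.v then 1 else 0 := by
  by_cases h : IsSh v
  · obtain ⟨s, rfl⟩ : ∃ s : Sh, s.v = v := ⟨⟨⟨v, h.1⟩, h.2⟩, rfl⟩
    rw [ex_v, XX_x]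
    exact if_congr (or_congr ⟨congrArg Sh.v, Sh.ext⟩ ⟨congrArg Sh.v, fun e => Sh.ext e⟩) rfl rfl
  · rw [ex_of_not _ h, if_neg]
    rintro (rfl | rfl)
    exacts [h r.isSh, h (-r).isSh]
theorem ex_smul (c : F) (x : Sh → F) (v : V) : ex (c • x) v = c * ex x v := by
  unfold ex; split_ifs
  exacts [rfl, (mul_zero _).symm]

end axis

theorem tau_ax {i j : GolayPt} (h : i ≠ j) {r : Sh} (hr : r.v = vA i j 0 1) :
    (tau F).1 (ax F r) = ax F r := by
  let p : GolayPt → GolayPt → F := fun k l => if k = i ∧ l = j ∨ l = i ∧ k = j then -16 else 0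
  have hp : Pv p := ⟨fun k l => if_congr or_comm rfl rfl, fun k => if_neg (by
    rintro (⟨rfl, e⟩ | ⟨rfl, e⟩) <;> exact h e)⟩
  have hv : ∀ o : C, Vu o (0 : W → F) := fun o => ⟨fun _ => rfl, fun _ => rfl, fun _ _ => rfl, .inr rfl⟩
  let c : Cd F := ⟨fun k => if k = i ∨ k = j then 16 else 0, p, p, p, 0, 0, 0, 0, hp, hp, hp, hv,
    fun _ _ => rfl, fun _ _ => rfl, fun _ _ => rfl⟩
  have k : ∀ v, ty v ≠ 0 → ex (ax F r).x v = 0 := fun v hv => by
    rw [ax_x, ex_smul, ex_XX, if_neg, mul_zero]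
    rintro (rfl | rfl) <;> simp [hr, vA_neg, ty_vA] at hv
  have hc : Rel (ax F r) c := by
    refine ⟨fun k l => ?_, fun k l s t => ?_, fun o s => ?_, fun d l => ?_, fun d l => ?_⟩
    · simp only [ax_A, Rm, vecMulVec_apply, cv, hr, vA_apply, c, p]
      by_cases a : k = i
      · subst a
        by_cases b : l = k
        · subst b; simp [h]; norm_num
        · by_cases b' : l = j <;> simp [b, b', h, h.symm, Ne.symm b]; norm_num
      · by_cases a' : k = j
        · subst a'
          by_cases b : l = k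
          · subst b; simp [a]; norm_num
          · by_cases b' : l = i <;> simp [b, b', a, h, Ne.symm b]; norm_num
        · simp [a, a']
    · rw [ax_x, ex_smul, ex_XX, hr, vA_neg]
      simp only [eq_comm (a := vA k l s t), vA_eq_iff h, c, p, eq_comm (a := k), eq_comm (a := l)]
      by_cases a : i = k ∧ j = l ∨ i = l ∧ j = k
      · rw [if_pos a]
        rcases a with ⟨rfl, rfl⟩ | ⟨rfl, rfl⟩ <;>
        rcases H79.zmod2_cases s with rfl | rfl <;> rcases H79.zmod2_cases t with rfl | rfl <;>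
          simp [h, h.symm, z2_add_self] <;> norm_num
      · rw [if_neg a, if_neg (by tauto)]; simp
    · by_cases e : wt o = 8
      · exact k _ (by rw [ty_vO (ne_zero_of_wt e)]; decide)
      · exact ex_of_not _ fun a => e (isSh_vO.1 a).1
    · rw [k _ (by rw [ty_vX]; decide)]; simp [c]
    · simp [ax_w, c]
  have := hc.tau
  rw [show c.rot = c from Cd.ext rfl rfl rfl rfl (funext fun o => by
    simp only [Cd.rot, c, Pi.zero_apply, Hd_zero, Dd_zero]) rfl rfl rfl] at this
  exact this.left_unique hc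

/-- the minimal vector of `t` -/
def r0 : Sh := ⟨lA 0 1 0 1, nm_t⟩

theorem ax_cj {g : Mon F} (hz : g * zM F = zM F * g) {r s : Sh} {x y : ℕ} (hx : Cod r.1 x)
    (hy : Cod s.1 y) (e : bt x 24 = bt y 24) (h : Cj g x y) : g.1 (ax F r) = ax F s := by
  obtain ⟨n, rfl⟩ := jobC g hz
  have h1 := (conj_act hx).symm.trans (h.trans hy.qq)
  rw [act_YY_iff, e, add_eq_left] at h1
  rw [ax_act r n h1.1]
  rcases eq_or_neg_of_congr (by rw [co0_sqNorm, r.2]; norm_num) (by rw [s.2]; norm_num) h1.2 with a | a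
  · rw [show n.ψ • r = s from Subtype.ext a]
  · rw [show n.ψ • r = -s from Subtype.ext a, ax_neg]

/-- the axis of `t` is fixed by `2.B` -/
theorem ax_GG {g : Mon F} (hg : g ∈ H75.BM.GG F H75.BM.TB) : g.1 (ax F r0) = ax F r0 := by
  have k : ∀ g ∈ H75.BM.PP F H75.BM.TB, g.1 (ax F r0) = ax F r0 := fun g hg =>
    ax_cj (H75.BM.mem_PP.1 hg).1 cod_t cod_t rfl ((H75.BM.mem_PP.1 hg).2 _ (by simp))
  have k' : ∀ g : Mon F, g.1 (ax F r0) = ax F r0 → g⁻¹.1 (ax F r0) = ax F r0 := fun g h =>
    g.1.injective ((mon_inv g _).trans h.symm)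
  induction hg using Subgroup.closure_induction with
  | mem g hg =>
    rcases hg with hg | rfl
    · exact k g hg
    · have e : cjc 4096 12288 = 12288 := by decide +kernel
      show (tau F)⁻¹.1 ((qq F 4096).1 _) = _
      rw [k _ (H75.BM.mem_PP.2 ⟨qq_comm_z _, by simpa using e ▸ cj_qq (F := F) 4096 12288⟩)]
      exact k' _ (tau_ax (by decide) rfl)
  | one => rfl
  | mul g g' _ _ a b => exact (congrArg g.1 b).trans a
  | inv g _ a => exact k' g a

/-! ### the involutions `tA r` and `sg r` -/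

theorem dot_cases (r s : Sh) : s = r ∨ s = -r ∨ (XX F r).x s = 0 ∧
    (dotInt r.v s.v = 0 ∨ dotInt r.v s.v = 8 ∨ dotInt r.v s.v = -8 ∨ dotInt r.v s.v = 16 ∨
      dotInt r.v s.v = -16) := by
  by_cases h : s = r ∨ s = -r
  · exact h.imp_right .inl
  obtain ⟨d, e, h1, h2, h3, h4⟩ := dot_bound r s
  have h5 := sqNorm_short (add_mem r.mem s.mem)
  have h6 := sqNorm_short (sub_mem r.mem s.mem)
  rw [sqNorm_add, r.isSh.2, s.isSh.2, add_eq_zero_iff_eq_neg] at h5
  rw [sqNorm_sub, r.isSh.2, s.isSh.2, sub_eq_zero] at h6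
  have h7 : r.v ≠ s.v := fun a => h (.inl (Sh.ext a).symm)
  have h8 : r.v ≠ -s.v := fun a => h (.inr (Sh.ext (neg_eq_iff_eq_neg.1 a.symm)))
  have h9 : d ≠ 4 := fun a => h7 (congrArg Sh.v (h3 a))
  have h10 : d ≠ -4 := fun a => h8 (congrArg Sh.v (h4 a))
  simp only [h7, h8, false_or] at h5 h6
  exact .inr (.inr ⟨if_neg h, by omega⟩)

variable (F) in
/-- the involution of the axis -/
noncomputable def tA (r : Sh) : Mon F := Lift.act (Lift.X F r.1)
variable (F) in
/-- the reflection in `r` -/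
noncomputable def Pm (r : Sh) : MM F := 1 - (16 : F)⁻¹ • Rm F r

section axis
variable (r : Sh) (b : B F)

theorem tA_A : ((tA F r).1 b).A = b.A := by simp [tA, Lift.act_apply, Lift.actL_A, Lift.X]
theorem tA_x (s : Sh) : ((tA F r).1 b).x s = ch ((dotInt r.v s.v / 8 : ℤ) : ZMod 2) * b.x s := by
  have := ex_X r.1 b s.v
  rw [ex_v, ex_v] at this
  exact this
theorem tA_w : ((tA F r).1 b).w = rho F r.v * b.w := by
  simp [tA, Lift.act_apply, Lift.actL_w, Lift.X]
theorem Pm_symm : (Pm F r)ᵀ = Pm F r := by simp [Pm, transpose_sub, Rm_symm]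
theorem ex_add (x : Sh → F) (s : Sh) (h : dotInt r.v s.v ≠ -16) : ex x (r.v + s.v) = 0 :=
  ex_of_norm _ (by rw [sqNorm_add, r.isSh.2, s.isSh.2]; omega)
theorem ex_sub (x : Sh → F) (s : Sh) (h : dotInt r.v s.v ≠ 16) : ex x (r.v - s.v) = 0 :=
  ex_of_norm _ (by rw [sqNorm_sub, r.isSh.2, s.isSh.2]; omega)
theorem dot_rr : dotInt r.v r.v = 32 := (dotInt_self _).trans r.2
theorem dot_rn : dotInt r.v (-r).v = -32 := (dotInt_neg_right _ _).trans (by rw [dot_rr])

/-- the reflection in `r`, acting on the algebra of fixed points of `tA r` -/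
noncomputable def sg : B F := B.mk (Pm F r * b.A * Pm F r)
  (fun s => if dotInt r.v s.v ^ 2 = 256 then
    ch (be s.v r.v) * (ex b.x (r.v + s.v) + ex b.x (r.v - s.v)) else b.x s) (b.w * Pm F r)
  (by simp [transpose_mul, Pm_symm, b.A_symm, Matrix.mul_assoc])
  fun s => by
    rw [b.x_neg, show (-s).v = -s.v from rfl, dotInt_neg_right, be, dl_neg s.mem,
      ← be, sub_neg_eq_add, ← sub_eq_add_neg, add_comm (ex _ _), neg_sq]

theorem bil_ax : bil b (ax F r) = 2 * qA b.A r.v - 64 * b.x r := by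
  rw [bil, ax_A, ax_x, ax_w, H71.Gr.qA_eq, Rm]
  simp only [Pi.smul_apply, smul_eq_mul, mul_left_comm _ (-32 : F), ← Finset.mul_sum, sum_XX, b.x_neg,
    Matrix.mul_zero, trace_zero]
  ring

variable {b}
theorem x_of_even (h : (tA F r).1 b = b) {s : Sh} (hs : ¬ (16 : ℤ) ∣ dotInt r.v s.v) : b.x s = 0 := by
  have h1 := tA_x r b s
  have h2 := eight_dvd_dotInt r.mem s.mem
  rw [h, cast2_1 (by omega), ch_one] at h1
  exact mul_left_cancel₀ two_ne (by linear_combination h1)
theorem x_of_odd (h : (tA F r).1 b = -b) {s : Sh} (hs : (16 : ℤ) ∣ dotInt r.v s.v) : b.x s = 0 := by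
  have h1 := tA_x r b s
  rw [h, cast2_0 (by omega), ch_zero] at h1
  exact mul_left_cancel₀ two_ne (by simp only [B.neg_x, Pi.neg_apply] at h1; linear_combination -h1)

theorem adx_odd (h : (tA F r).1 b = -b) : adx r b = (512 : F) • b := by
  have hA : b.A = 0 := smul_right_injective _ (two_ne (F := F)) (by
    have := tA_A r b
    rw [h, B.neg_A] at this
    simp only [two_smul, add_zero]
    exact add_eq_zero_iff_neg_eq.2 this)
  have hw : rho F r.v * b.w = -b.w := by rw [← tA_w, h, B.neg_w]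
  have he : ∀ v, (16 : ℤ) ∣ dotInt r.v v → ex b.x v = 0 := fun v hv => by
    by_cases e : IsSh v
    · exact (dif_pos e).trans (x_of_odd r h hv)
    · exact ex_of_not _ e
  refine B.ext ?_ (funext fun s => ?_) ?_
  · simp [adx, hA, x_of_odd r h (s := r) (by rw [dot_rr]; decide)]
  · simp only [adx, B.mk_x, hA, qA, zero_mulVec, dotProduct_zero, B.smul_x, Pi.smul_apply, smul_eq_mul]
    by_cases e : (16 : ℤ) ∣ dotInt r.v s.v
    · rw [x_of_odd r h e, he _ (by rw [dotInt_add_right, dot_rr]; omega),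
        he _ (by rw [dotInt_sub_right, dot_rr]; omega)]
      ring
    · rw [ex_add r _ s (by omega), ex_sub r _ s (by omega)]
      rcases dot_cases (F := F) r s with rfl | rfl | ⟨-, k | k | k | k | k⟩
      · exact absurd (by rw [dot_rr]; decide) e
      · exact absurd (by rw [dot_rn]; decide) e
      all_goals rw [k] at e ⊢; first | exact absurd (by decide) e | (push_cast; ring)
  · simp only [adx, B.mk_w, hw, Mr, B.smul_w, Matrix.mul_sub, Matrix.mul_smul, Matrix.neg_mul,
      Matrix.mul_one, Rm]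
    module

theorem adx_even (h : (tA F r).1 b = b) :
    adx r b = (2048 : F) • (b - sg r b) + (4 * bil b (ax F r)) • ax F r := by
  have hw : rho F r.v * b.w = b.w := by rw [← tA_w, h]
  have h16 := sixteen_ne (F := F)
  rw [bil_ax]
  refine B.ext ?_ (funext fun s => ?_) ?_
  · simp only [adx, sg, B.mk_A, B.add_A, B.smul_A, B.sub_A, ax_A, Pm, Matrix.sub_mul, Matrix.mul_sub,
      Matrix.smul_mul, Matrix.mul_smul, Matrix.one_mul, Matrix.mul_one, Rm_mul_mul]
    match_scalars <;> field_simp <;> ring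
  · simp only [adx, sg, B.mk_x, B.add_x, B.smul_x, B.sub_x, ax_x, Pi.add_apply, Pi.smul_apply,
      Pi.sub_apply, smul_eq_mul]
    rcases dot_cases (F := F) r s with rfl | rfl | ⟨e, k | k | k | k | k⟩
    · rw [ex_add _ _ _ (by rw [dot_rr]; decide), ex_sub _ _ _ (by rw [dot_rr]; decide), dot_rr,
        XX_self, if_neg (by decide)]
      push_cast; ring
    · rw [ex_add _ _ _ (by rw [dot_rn]; decide), ex_sub _ _ _ (by rw [dot_rn]; decide), dot_rn,
        B.x_neg, B.x_neg, XX_self, if_neg (by decide)]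
      push_cast; ring
    · rw [ex_add r _ s (by omega), ex_sub r _ s (by omega), e, k, if_neg (by decide)]
      push_cast; ring
    · rw [ex_add r _ s (by omega), ex_sub r _ s (by omega), e, x_of_even r h (by omega), k,
        if_neg (by decide)]
      ring
    · rw [ex_add r _ s (by omega), ex_sub r _ s (by omega), e, x_of_even r h (by omega), k,
        if_neg (by decide)]
      ring
    all_goals rw [e, k, if_pos (by decide)]; push_cast; ring
  · simp only [adx, sg, B.mk_w, hw, Mr, B.add_w, B.smul_w, B.sub_w, ax_w, Matrix.mul_sub,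
      Matrix.mul_smul, Matrix.mul_one, Rm, Pm]
    match_scalars <;> field_simp <;> ring

end axis

/-! ### the eigenspace of dimension 4371 -/

variable (F) in
/-- the eigenspace of the axis for the eigenvalue `1/4` -/
noncomputable def E4 (r : Sh) : Submodule F (B F) :=
  LinearMap.ker ((4 : F) • pd F (ax F r) - LinearMap.id)

theorem mem_E4 {r : Sh} {b : B F} : b ∈ E4 F r ↔ adx r b = (4096 : F) • b := by
  rw [E4, LinearMap.mem_ker, LinearMap.sub_apply, sub_eq_zero, ← pd_ax, LinearMap.smul_apply,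
    show (16384 : F) = 4096 * 4 by norm_num, mul_smul, (smul_right_injective _ n4096).eq_iff]; rfl

theorem E4_inv {r : Sh} {g : Mon F} (h : g.1 (ax F r) = ax F r) {b : B F} (hb : b ∈ E4 F r) :
    g.1 b ∈ E4 F r := by
  rw [mem_E4, ← pd_ax] at hb ⊢
  rw [← h, pd_inv, ← map_smul, hb, map_smul]

theorem seven_ne : (7 : F) ≠ 0 := by exact_mod_cast Good.ne (F := F) 7 (by decide) (by decide)

theorem tA_ax (r : Sh) : (tA F r).1 (ax F r) = ax F r :=
  (ax_act r (Lift.X F r.1) (cast2_0 (by rw [dot_rr]; decide))).trans (by simp [Lift.X])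
theorem tA_tA (r : Sh) (b : B F) : (tA F r).1 ((tA F r).1 b) = b := by
  refine B.ext ?_ (funext fun s => ?_) ?_
  · rw [tA_A, tA_A]
  · rw [tA_x, tA_x, ch_mul_self']
  · rw [tA_w, tA_w, ← Matrix.mul_assoc]
    nth_rewrite 2 [← rho_symm r]
    rw [rho_mul_transpose r.mem, Matrix.one_mul]

theorem tA_E4 {r : Sh} {b : B F} (hb : b ∈ E4 F r) : (tA F r).1 b = b := by
  have h1 := mem_E4.1 (sub_mem hb (E4_inv (tA_ax r) hb))
  rw [adx_odd r (by rw [map_sub, tA_tA, neg_sub])] at h1
  have h2 : (512 - 4096 : F) • (b - (tA F r).1 b) = 0 := 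
    (sub_smul (R := F) (M := B F) _ _ _).trans (sub_eq_zero.2 h1)
  refine (sub_eq_zero.1 ((smul_eq_zero.1 h2).resolve_left ?_)).symm
  rw [show (512 - 4096 : F) = -(2 ^ 9 * 3 ^ 0 * 7) by norm_num, neg_eq_zero]
  exact mul_ne_zero (nz _ _) seven_ne

theorem half {α : Type*} (T : Finset α) (p : α → Prop) [DecidablePred p] (ι : α → α) (h1 : Set.InjOn ι T)
    (h2 : ∀ a ∈ T, ι a ∈ T) (h3 : ∀ a ∈ T, p a → ¬ p (ι a)) : 2 * (T.filter p).card ≤ T.card := by
  have h4 : (T.filter p).card ≤ (T.filter fun a => ¬ p a).card :=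
    Finset.card_le_card_of_injOn ι (fun a ha => by
      simp only [Finset.coe_filter, Set.mem_ofPred_eq] at ha ⊢
      exact ⟨h2 a ha.1, h3 a ha.1 ha.2⟩) (h1.mono (Finset.coe_subset.2 (Finset.filter_subset _ _)))
  have := Finset.card_filter_add_card_filter_not (s := T) p
  omega

/-- the reflection in `r` on the vectors with scalar product 16, up to sign -/
noncomputable def rfl16 (r s : Sh) : Sh := if h : dotInt r.v s.v = 16 then
  ⟨r.1 - s.1, by rw [AddSubgroup.coe_sub, sqNorm_sub, r.2, s.2, h]; rfl⟩ else s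
theorem rfl16_v {r s : Sh} (h : dotInt r.v s.v = 16) : (rfl16 r s).v = r.v - s.v :=
  congrArg Sh.v (dif_pos h)

theorem exists_half16 (r : Sh) : ∃ S : Finset Sh, S.card ≤ 2300 ∧
    ∀ s, dotInt r.v s.v = 16 → s ∈ S ∨ rfl16 r s ∈ S := by
  obtain ⟨f, hf⟩ := Countable.exists_injective_nat Sh
  let T := Finset.univ.filter fun s : Sh => dotInt r.v s.v = 16
  have hT : T.card = 4600 := by
    obtain ⟨g, hg⟩ := H77.exists_smul_U r.2
    have h1 : (H77.S1 r.1 16).ncard = 4600 := hg ▸ (H77.co2_census.1.2.1.map1 g).1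
    rw [← h1, ← Set.ncard_coe_finset, ← Set.ncard_image_of_injective (T : Set Sh)
      (f := fun s : Sh => s.1) Subtype.val_injective]
    refine congrArg Set.ncard (Set.ext fun v => ?_)
    exact ⟨fun ⟨s, hs, e⟩ => e ▸ ⟨s.2, (Finset.mem_filter.1 hs).2⟩,
      fun h => ⟨⟨v, h.1⟩, Finset.mem_filter.2 ⟨Finset.mem_univ _, h.2⟩, rfl⟩⟩
  have h1 : ∀ s, dotInt r.v s.v = 16 → dotInt r.v (rfl16 r s).v = 16 := fun s h => by
    rw [rfl16_v h, dotInt_sub_right, dot_rr, h]; rfl
  have h2 : ∀ s, dotInt r.v s.v = 16 → rfl16 r (rfl16 r s) = s := fun s h =>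
    Sh.ext (by rw [rfl16_v (h1 s h), rfl16_v h, sub_sub_cancel])
  have h3 := half T (fun s => f s ≤ f (rfl16 r s)) (rfl16 r)
    (fun a ha b hb e => by
      rw [← h2 a (Finset.mem_filter.1 ha).2, e, h2 b (Finset.mem_filter.1 hb).2])
    (fun a ha => Finset.mem_filter.2 ⟨Finset.mem_univ _, h1 a (Finset.mem_filter.1 ha).2⟩)
    fun a ha k k' => by
      have e := (Finset.mem_filter.1 ha).2
      rw [h2 a e] at k'
      have e1 := congrArg (fun s => dotInt s.v a.v) (hf (le_antisymm k k'))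
      simp only [rfl16_v e, dotInt_sub_left, dot_rr, e] at e1
      omega
  refine ⟨T.filter fun s => f s ≤ f (rfl16 r s), by omega, fun s hs => ?_⟩
  simp only [T, Finset.mem_filter, Finset.mem_univ, true_and, hs, h1 s hs, h2 s hs]
  omega

theorem E4_zero {r : Sh} {b : B F} (hb : b ∈ E4 F r) {j : GolayPt} (hj : cv F r.v j ≠ 0)
    (h1 : ∀ k ≠ j, (b.A *ᵥ cv F r.v) k = 0)
    (h2 : ∀ s, dotInt r.v s.v = 16 → b.x s = 0 ∨ b.x (rfl16 r s) = 0)
    (h3 : b.w *ᵥ cv F r.v = 0) : b = 0 := by
  have ht := tA_E4 hb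
  have h := mem_E4.1 hb
  have hA := congrArg B.A h
  have hx := congrFun (congrArg B.x h)
  have hw := congrArg B.w h
  simp only [adx, B.mk_A, B.mk_x, B.mk_w, B.smul_A, B.smul_x, B.smul_w, Pi.smul_apply,
    smul_eq_mul] at hA hx hw
  have e1 := congrArg (fun A => trace (A * Rm F r)) hA
  have e2 := hx r
  have q : trace (b.A * Rm F r) = qA b.A r.v := (H71.Gr.qA_eq _ _).symm
  simp only [sub_mul, add_mul, smul_mul_assoc, Rm_mul_mul, Matrix.mul_assoc b.A, Rm_sq,
    Matrix.mul_smul, trace_sub, trace_add, trace_smul, trace_Rm, smul_eq_mul, q] at e1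
  rw [ex_add _ _ _ (by rw [dot_rr]; decide), ex_sub _ _ _ (by rw [dot_rr]; decide), dot_rr,
    XX_self] at e2
  push_cast at e2
  have hr : b.x r = 0 := mul_left_cancel₀ (nz 16 1) (by linear_combination -e1 - 16 * e2)
  have hq : qA b.A r.v = 0 := mul_left_cancel₀ (nz 8 0) (by linear_combination 4096 * hr - e2)
  refine B.ext ?_ (funext fun s => ?_) ?_
  · have hv : b.A *ᵥ cv F r.v = 0 := funext fun k => by
      rcases eq_or_ne k j with rfl | a
      · rw [qA, dotProduct, Finset.sum_eq_single k (fun l _ a => by rw [h1 l a, mul_zero])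
          (by simp)] at hq
        exact (mul_eq_zero.1 hq).resolve_left hj
      · exact h1 k a
    have a : b.A * Rm F r = 0 := by rw [Rm, mul_vecMulVec, hv, zero_vecMulVec]
    have a' : Rm F r * b.A = 0 := by
      rw [← Rm_symm, ← b.A_symm, ← transpose_mul, a, transpose_zero]
    rw [a, a', hr] at hA
    exact smul_right_injective _ (n4096 (F := F)) (by simpa using hA.symm)
  · have k16 : ∀ s, dotInt r.v s.v = 16 → b.x s = 0 := fun s k => (h2 s k).elim id fun a => by
      have := hx s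
      rw [ex_add r _ s (by omega), ← rfl16_v k, ex_v, a, hq, k] at this
      push_cast at this
      exact mul_left_cancel₀ (nz 11 0) (by linear_combination -this)
    show b.x s = 0
    rcases dot_cases (F := F) r s with rfl | rfl | ⟨-, k | k | k | k | k⟩
    · exact hr
    · exact (b.x_neg _).trans hr
    · have := hx s
      rw [ex_add r _ s (by omega), ex_sub r _ s (by omega), hq, k] at this
      exact mul_left_cancel₀ n4096 (by push_cast at this; linear_combination -this)
    · exact x_of_even r ht (by omega)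
    · exact x_of_even r ht (by omega)
    · exact k16 s k
    · exact (b.x_neg s).symm.trans (k16 _ ((dotInt_neg_right _ _).trans (by rw [k]; rfl)))
  · have a : b.w * Rm F r = 0 := by rw [Rm, mul_vecMulVec, h3, zero_vecMulVec]
    rw [← tA_w, ht, Mr, Matrix.mul_sub, Matrix.mul_smul, Matrix.mul_one, ← Rm, a] at hw
    exact smul_right_injective _ (n4096 (F := F)) (by
      simp only [B.zero_w]; rw [← hw]; module)

theorem finrank_le_of_ker {K V W : Type*} [Field K] [AddCommGroup V] [Module K V] [AddCommGroup W]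
    [Module K W] [FiniteDimensional K W] (φ : V →ₗ[K] W) (h : ∀ v, φ v = 0 → v = 0) :
    Module.finrank K V ≤ Module.finrank K W :=
  LinearMap.finrank_le_finrank_of_injective ((injective_iff_map_eq_zero φ).2 h)

theorem finrank_E4 : Module.finrank F (E4 F r0) ≤ 4371 := by
  obtain ⟨S, hS, hS'⟩ := exists_half16 r0
  let T : Finset C := Finset.univ.filter fun d => dl r0.v d = 0
  have hT := half Finset.univ (fun d : C => dl r0.v d = 0) (· + gC 0) (add_left_injective _).injOn
    (fun _ _ => Finset.mem_univ _) fun d _ a b => by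
      rw [dl_right, a, zero_add, show dl r0.v (gC 0) = _ from (cod_t 0 (by decide)).2] at b
      exact absurd b (by decide)
  rw [Finset.card_univ, card_C] at hT
  change 2 * T.card ≤ 4096 at hT
  let φ : E4 F r0 →ₗ[F] ({k // k ≠ H72.pt 0} → F) × (S → F) × (T → F) :=
    { toFun := fun b => (fun k => (b.1.A *ᵥ cv F r0.v) k, fun s => b.1.x s,
        fun d => (b.1.w *ᵥ cv F r0.v) d)
      map_add' := fun _ _ => by ext <;> simp [add_mulVec]
      map_smul' := fun _ _ => by ext <;> simp [smul_mulVec] }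
  have hφ : ∀ b, φ b = 0 → b = 0 := fun b e => by
    have e1 := congrFun (congrArg Prod.fst e)
    have e2 := congrFun (congrArg (Prod.fst ∘ Prod.snd) e)
    have e3 := congrFun (congrArg (Prod.snd ∘ Prod.snd) e)
    refine Subtype.ext (E4_zero b.2 (j := H72.pt 0) ?_ (fun k hk => e1 ⟨k, hk⟩)
      (fun s hs => (hS' s hs).imp (fun a => e2 ⟨_, a⟩) fun a => e2 ⟨_, a⟩) (funext fun d => ?_))
    · rw [cv, show r0.v (H72.pt 0) = 4 by decide +kernel]
      exact_mod_cast four_ne
    · rcases H79.zmod2_cases (dl r0.v d) with a | a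
      · exact e3 ⟨d, by simpa [T] using a⟩
      · have h1 := congrArg B.w (tA_E4 b.2)
        have h2 : ec r0.v = 0 := (ec_vA ..).trans (zero_smul _ _)
        show ∑ k, b.1.w d k * cv F r0.v k = 0
        refine Finset.sum_eq_zero fun k _ => mul_eq_zero_of_left ?_ _
        have h3 := congrFun (congrFun h1 d) k
        rw [tA_w, rho_mul_apply, h2, add_zero, a, ch_one] at h3
        exact mul_left_cancel₀ two_ne (by linear_combination -h3)
  have := finrank_le_of_ker (K := F) (V := E4 F r0) φ hφ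
  simp only [Module.finrank_prod, Module.finrank_fintype_fun_eq_card, Fintype.card_coe,
    Fintype.card_subtype_compl, Fintype.card_subtype_eq, card_pt] at this
  omega

end H23.Om
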