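import Cfsg.Agent.H23.BRc

/-! Reduction of rational representations modulo 2; the representation of degree 4370. -/

set_option autoImplicit false
set_option linter.unusedSectionVars false
open Cfsg H79 H17.Gr Matrix
open H71.Gr hiding GG

namespace H23.Om

section red
variable {G : Type*} [Group G]

theorem exists_int [Finite G] {V : Type*} [AddCommGroup V] [Module ℚ V] [FiniteDimensional ℚ V]
    (φ : G →* (V →ₗ[ℚ] V)) {x : G} (hx : φ x ≠ 1) :
    ∃ n ≤ Module.finrank ℚ V, ∃ M : G →* Matrix (Fin n) (Fin n) ℤ, M x ≠ 1 := by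
  obtain ⟨v, hv⟩ : ∃ v, φ x v ≠ v := not_forall.1 fun h => hx (LinearMap.ext h)
  let L := Submodule.span ℤ (Set.range fun g => φ g v)
  have : Module.Finite ℤ L := Module.Finite.span_of_finite ℤ (Set.finite_range _)
  have : Module.IsTorsionFree ℤ V := Module.IsTorsionFree.trans_faithfulSMul ℤ ℚ V
  have hL : ∀ g, ∀ u ∈ L, (φ g).restrictScalars ℤ u ∈ L := fun g u hu =>
    (Submodule.map_span_le ((φ g).restrictScalars ℤ) _ L).2 (by
      rintro _ ⟨k, rfl⟩
      exact Submodule.subset_span ⟨g * k, by simp⟩) ⟨u, hu, rfl⟩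
  let ψ : G →* (L →ₗ[ℤ] L) :=
    { toFun := fun g => ((φ g).restrictScalars ℤ).restrict (hL g)
      map_one' := LinearMap.ext fun u => Subtype.ext (by simp [LinearMap.restrict_apply])
      map_mul' := fun a b => LinearMap.ext fun u => Subtype.ext (by simp [LinearMap.restrict_apply]) }
  let b := Module.finBasis ℤ L
  refine ⟨_, ?_, (LinearMap.toMatrixAlgEquiv b).toMonoidHom.comp ψ, fun e => hv ?_⟩
  · simpa using ((LinearIndependent.iff_fractionRing ℤ ℚ).1
      (b.linearIndependent.map' L.subtype L.ker_subtype)).fintype_card_le_finrank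
  · have h1 : ψ x = 1 := (LinearMap.toMatrixAlgEquiv b).injective (e.trans (map_one _).symm)
    exact congrArg Subtype.val (LinearMap.congr_fun h1 ⟨v, Submodule.subset_span ⟨1, by simp⟩⟩)

/-- reduction modulo 2 -/
abbrev md2 (n : ℕ) : Matrix (Fin n) (Fin n) ℤ →+* Matrix (Fin n) (Fin n) (ZMod 2) :=
  (Int.castRingHom (ZMod 2)).mapMatrix

theorem eq_one_of_md2 {n k : ℕ} {A : Matrix (Fin n) (Fin n) ℤ} (hk : Odd k) (h : A ^ k = 1)
    (h2 : md2 n A = 1) : A = 1 := by
  have h1 := mul_geom_sum A k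
  have h3 : md2 n (∑ i ∈ Finset.range k, A ^ i) = 1 := by
    simp only [map_sum, map_pow, h2, one_pow, Finset.sum_const, Finset.card_range]
    rw [← Nat.cast_smul_eq_nsmul (ZMod 2), (ZMod.natCast_eq_one_iff_odd).2 hk, one_smul]
  have h4 : (∑ i ∈ Finset.range k, A ^ i).det ≠ 0 := fun e => by
    have := (Int.castRingHom (ZMod 2)).map_det (∑ i ∈ Finset.range k, A ^ i)
    rw [e, map_zero, h3, det_one] at this
    exact zero_ne_one this
  rw [h, sub_self] at h1
  have h5 := congrArg (· * adjugate (∑ i ∈ Finset.range k, A ^ i)) h1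
  simp only [Matrix.mul_assoc, mul_adjugate, Matrix.mul_smul, Matrix.mul_one, Matrix.zero_mul] at h5
  exact sub_eq_zero.1 ((smul_eq_zero.1 h5).resolve_left h4)

theorem exists_odd_part {n : ℕ} (P : Matrix (Fin n) (Fin n) ℤ → Prop)
    (h : ∀ T, P ((2 : ℤ) • T) → P T) (i j : Fin n) (k : ℕ) :
    ∀ S, P S → S i j ≠ 0 → (S i j).natAbs = k → ∃ T, P T ∧ md2 n T ≠ 0 := by
  induction k using Nat.strong_induction_on with
  | _ k ih =>
    intro S h1 h2 h3
    by_cases e : md2 n S = 0
    · have h4 : ∀ a b, 2 ∣ S a b := fun a b =>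
        (ZMod.intCast_zmod_eq_zero_iff_dvd _ 2).1 (congrFun (congrFun e a) b)
      have h5 := h4 i j
      exact ih (S i j / 2).natAbs (by omega) (of fun a b => S a b / 2) (h _ (by
        convert h1; ext a b; exact Int.mul_ediv_cancel' (h4 a b))) (by simp; omega) rfl
    · exact ⟨S, h1, e⟩

theorem exists_form [Finite G] {n : ℕ} (i : Fin n) (M : G →* Matrix (Fin n) (Fin n) ℤ) :
    ∃ S, (Sᵀ = S ∧ ∀ g, (M g)ᵀ * S * M g = S) ∧ md2 n S ≠ 0 := by
  have := Fintype.ofFinite G
  refine exists_odd_part _ (fun T h => ⟨smul_right_injective _ (two_ne_zero (α := ℤ)) ?_, fun g =>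
    smul_right_injective _ (two_ne_zero (α := ℤ)) ?_⟩) i i _ (∑ g, (M g)ᵀ * M g)
    ⟨by simp [transpose_sum, transpose_mul], fun g => ?_⟩ (ne_of_gt ?_) rfl
  · simpa only [transpose_smul] using h.1
  · simpa only [Matrix.smul_mul, Matrix.mul_smul] using h.2 g
  · rw [Finset.mul_sum, Finset.sum_mul, ← Equiv.sum_comp (Equiv.mulRight g) fun k => (M k)ᵀ * M k]
    simp [transpose_mul, Matrix.mul_assoc]
  · rw [Matrix.sum_apply]
    refine Finset.sum_pos' (fun g _ => by
      rw [mul_apply]; exact Finset.sum_nonneg fun k _ => mul_self_nonneg (M g k i))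
      ⟨1, Finset.mem_univ _, by simp⟩

theorem det_alt {n : ℕ} (hn : Odd n) {S : Matrix (Fin n) (Fin n) ℤ} (h : Sᵀ = S)
    (h0 : ∀ i, md2 n S i i = 0) : (md2 n S).det = 0 := by
  let A : Matrix (Fin n) (Fin n) ℤ := of fun i j => if i < j then S i j else if j < i then -S i j else 0
  have h1 : Aᵀ = -A := by
    ext i j
    have := congrFun (congrFun h i) j
    rcases lt_trichotomy i j with a | rfl | a
    · simp [A, a, a.not_gt, ← this]
    · simp [A]
    · simp [A, a, a.not_gt, ← this]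
  have h2 : A.det = 0 := by
    have := det_transpose A
    rw [h1, det_neg, Fintype.card_fin, hn.neg_one_pow] at this
    omega
  have h3 : md2 n A = md2 n S := by
    ext i j
    rcases lt_trichotomy i j with a | rfl | a
    · simp [A, a]
    · simpa [A] using (h0 i).symm
    · simp [A, a, a.not_gt, CharTwo.neg_eq]
  rw [← h3, ← RingHom.map_det, h2, map_zero]

theorem exists_inv_sub {n : ℕ} (hn : Odd n) (h1 : 1 < n) {S : Matrix (Fin n) (Fin n) ℤ} (h : Sᵀ = S)
    (h0 : md2 n S ≠ 0) (M : G →* Matrix (Fin n) (Fin n) (ZMod 2))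
    (hM : ∀ g, (M g)ᵀ * md2 n S * M g = md2 n S) :
    ∃ U : Submodule (ZMod 2) (Fin n → ZMod 2), U ≠ ⊥ ∧ U ≠ ⊤ ∧ ∀ g, ∀ v ∈ U, M g *ᵥ v ∈ U := by
  have hs : (md2 n S)ᵀ = md2 n S := by
    ext i j; exact congrArg Int.cast (congrFun (congrFun h i) j)
  by_cases e : ∀ i, md2 n S i i = 0
  · obtain ⟨v, h2, h3⟩ := exists_mulVec_eq_zero_iff.2 (det_alt hn h e)
    refine ⟨LinearMap.ker (md2 n S).mulVecLin, fun a => h2 (a.le h3),
      fun a => h0 (toLin'.injective ((LinearMap.ker_eq_top.1 a).trans (map_zero _).symm)),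
      fun g v hv => ?_⟩
    have := congrArg ((M g⁻¹)ᵀ * ·) (hM g)
    simp only [← Matrix.mul_assoc, ← transpose_mul, ← map_mul, mul_inv_cancel, map_one,
      transpose_one, Matrix.one_mul] at this
    rw [LinearMap.mem_ker, mulVecLin_apply] at hv ⊢
    rw [mulVec_mulVec, this, ← mulVec_mulVec, hv, mulVec_zero]
  generalize md2 n S = T at *
  obtain ⟨i, hi⟩ := not_forall.1 e
  let f : (Fin n → ZMod 2) →ₗ[ZMod 2] ZMod 2 :=
    { toFun := fun v => v ⬝ᵥ T *ᵥ v
      map_add' := fun v w => by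
        have : w ⬝ᵥ T *ᵥ v = v ⬝ᵥ T *ᵥ w := by
          rw [dotProduct_mulVec, ← mulVec_transpose, hs, dotProduct_comm]
        rw [mulVec_add, add_dotProduct, dotProduct_add, dotProduct_add, this, add_assoc,
          CharTwo.add_cancel_left]
      map_smul' := fun c v => by
        rcases H79.zmod2_cases c with rfl | rfl <;> simp }
  refine ⟨LinearMap.ker f, fun a => ?_, fun a => hi ?_, fun g v hv => ?_⟩
  · have := LinearMap.finrank_le_finrank_of_injective (LinearMap.ker_eq_bot.1 a)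
    simp at this
    omega
  · simpa [f] using LinearMap.congr_fun (LinearMap.ker_eq_top.1 a) (Pi.single i 1)
  · show (M g *ᵥ v) ⬝ᵥ T *ᵥ (M g *ᵥ v) = 0
    rw [mulVec_mulVec, dotProduct_mulVec, vecMul_mulVec, ← Matrix.mul_assoc, hM, ← dotProduct_mulVec]
    exact hv

theorem exists_GL_sub [IsSimpleGroup G] {K V : Type*} [Field K] [CharP K 2] [AddCommGroup V]
    [Module K V] [FiniteDimensional K V] (φ : G →* (V →ₗ[K] V)) {x : G} {k : ℕ} (hk : Odd k)
    (hx : x ^ k = 1) (hφ : φ x ≠ 1) {U : Submodule K V} (h0 : U ≠ ⊥) (h1 : U ≠ ⊤)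
    (hU : ∀ g, ∀ v ∈ U, φ g v ∈ U) {N n : ℕ} (h : Module.finrank K V ≤ N + 1) (hn : Nat.card G = n) :
    ∃ H : Subgroup (GL (Fin N) K), IsSimpleGroup H ∧ Nat.card H = n := by
  let α : G →* (U →ₗ[K] U) :=
    { toFun := fun g => (φ g).restrict (hU g)
      map_one' := LinearMap.ext fun u => Subtype.ext (by simp [LinearMap.restrict_apply])
      map_mul' := fun a b => LinearMap.ext fun u => Subtype.ext (by simp [LinearMap.restrict_apply]) }
  let β : G →* (V ⧸ U →ₗ[K] V ⧸ U) :=
    { toFun := fun g => U.mapQ U (φ g) (hU g)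
      map_one' := Submodule.linearMap_qext _ (LinearMap.ext fun u => by simp)
      map_mul' := fun a b => Submodule.linearMap_qext _ (LinearMap.ext fun u => by simp) }
  have h2 := Submodule.finrank_lt h1
  have h3 := U.finrank_quotient_add_finrank
  have h4 : Module.finrank K U ≠ 0 := fun e => h0 (Submodule.finrank_eq_zero.1 e)
  by_cases a : α x = 1
  · refine exists_GL' β (x := x) (fun b => hφ ?_) (by omega) hn
    have h5 : φ x * φ x = 1 := LinearMap.ext fun v => by
      have h6 : φ x v - v ∈ U := (Submodule.Quotient.eq U).1 (LinearMap.congr_fun b (U.mkQ v))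
      have h7 : φ x (φ x v - v) = φ x v - v := congrArg Subtype.val (LinearMap.congr_fun a ⟨_, h6⟩)
      have h8 : ∀ w : V, w + w = 0 := fun w => by rw [← two_smul K, CharTwo.two_eq_zero, zero_smul]
      rw [map_sub, sub_eq_iff_eq_add, sub_add_eq_add_sub, h8, zero_sub, neg_eq_of_add_eq_zero_left (h8 v)]
        at h7
      exact h7
    obtain ⟨m, rfl⟩ := hk
    have := congrArg φ hx
    rwa [map_pow, pow_succ, pow_mul, sq, h5, one_pow, one_mul, map_one] at this
  · exact exists_GL' α a (by omega) hn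

/-- a rational representation of degree at most `2 m + 1` gives a representation of degree `2 m`
over the field with two elements -/
theorem red2 [Finite G] [IsSimpleGroup G] {p : ℕ} [Fact p.Prime] (hp : Odd p) (hG : p ∣ Nat.card G)
    {V : Type*} [AddCommGroup V] [Module ℚ V] [FiniteDimensional ℚ V]
    (φ : G →* (V →ₗ[ℚ] V)) {x : G} (hx : φ x ≠ 1) {m c : ℕ} (hm : 0 < m)
    (h : Module.finrank ℚ V ≤ 2 * m + 1) (hc : Nat.card G = c) :
    ∃ H : Subgroup (GL (Fin (2 * m)) (ZMod 2)), IsSimpleGroup H ∧ Nat.card H = c := by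
  obtain ⟨n, hn, M, hM⟩ := exists_int φ hx
  obtain ⟨y, hy⟩ := exists_prime_orderOf_dvd_card' p hG
  have hy' : y ^ p = 1 := hy ▸ pow_orderOf_eq_one y
  let N : G →* Matrix (Fin n) (Fin n) (ZMod 2) := (md2 n).toMonoidHom.comp M
  let ψ : G →* ((Fin n → ZMod 2) →ₗ[ZMod 2] (Fin n → ZMod 2)) :=
    (toLinAlgEquiv' : _ ≃ₐ[ZMod 2] _).toMonoidHom.comp N
  have hψ : ψ y ≠ 1 := fun e => by
    have h1 : N y = 1 := (toLinAlgEquiv' : _ ≃ₐ[ZMod 2] _).injective (e.trans (map_one _).symm)
    have h2 := eq_one_of_md2 hp (by rw [← map_pow, hy', map_one]) h1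
    rw [inj_of_simple M hM (h2.trans (map_one M).symm), orderOf_one] at hy
    exact (Fact.out : p.Prime).one_lt.ne hy
  rcases (hn.trans h).eq_or_lt with e | e
  · obtain ⟨S, ⟨h1, h2⟩, h3⟩ := exists_form ⟨0, by omega⟩ M
    obtain ⟨U, h4, h5, h6⟩ := exists_inv_sub ⟨m, e⟩ (by omega) h1 h3 N fun g => by
      have := congrArg (md2 n) (h2 g)
      rw [map_mul, map_mul] at this
      exact this
    exact exists_GL_sub ψ hp hy' hψ h4 h5 h6 (by simp [e]) hc
  · exact exists_GL' ψ hψ (by simp; omega) hc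

end red

variable {F : Type} [Field F] [Good F]

/-- the action of `C(t)` on the eigenspace -/
noncomputable def repE (h : H75.BM.Ord F) : H79.CZ (t0 F) →* (E4 F r0 →ₗ[F] E4 F r0) where
  toFun g := g.1.1.1.toLinearMap.restrict fun _ => E4_inv (ax_GG ((mem_CZ_t0 h).1 g.2))
  map_one' := rfl
  map_mul' _ _ := rfl

theorem qq_t : qq F 12288 = tA F r0 := by rw [cod_t.qq, tA, ← YY_X]; rfl

/-- the action of the Baby Monster on the eigenspace -/
noncomputable def repB (h : H75.BM.Ord F) : B0 F →* (E4 F r0 →ₗ[F] E4 F r0) :=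
  QuotientGroup.lift (ZT (t0 F)) (repE h) fun x hx => by
    rcases (H78.mem_zpowers_invol t0_sq _).1 hx with e | e
    · rw [show x = 1 from Subtype.ext e]; exact one_mem _
    · refine LinearMap.ext fun b => Subtype.ext ?_
      show x.1.1.1 b.1 = b.1
      rw [show x.1 = t0 F from e, show (t0 F).1 = tA F r0 from qq_t, tA_E4 b.2]

theorem exists_E4 : ∃ b ∈ E4 F r0, (zM F).1 b ≠ b := by
  classical
  have h2 : ec r0.v = 0 := (ec_vA ..).trans (zero_smul _ _)
  let w : WW F := vecMulVec (Pi.single 0 1) (cv F r0.v)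
  have h3 : rho F r0.v * w = w := by
    ext d i
    rw [rho_mul_apply, h2, add_zero]
    rcases eq_or_ne d 0 with rfl | a
    · simp
    · simp [w, vecMulVec_apply, a]
  have h4 : w * Rm F r0 = (32 : F) • w := by
    rw [Rm, vecMulVec_mul_vecMulVec, cv_self, vecMulVec_smul]
  refine ⟨inW w, mem_E4.2 (B.ext ?_ (funext fun s => ?_) ?_), fun e => ?_⟩
  · simp [adx]
  · have k : ∀ v, ex (0 : Sh → F) v = 0 := fun v => by
      simpa using ex_smul (0 : F) 0 v
    simp [adx, qA, k]
  · simp only [adx, B.mk_w, inW_w, B.smul_w, h3, Mr, Matrix.mul_sub, Matrix.mul_smul, ← Rm.eq_1, h4,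
      Matrix.mul_one]
    module
  · have h5 := congrFun (congrFun (congrArg B.w ((Lift.actL_z _).symm.trans e)) 0) (H72.pt 0)
    simp only [B.mk_w, inW_w, Matrix.neg_apply, w, vecMulVec_apply, Pi.single_eq_same, cv,
      show r0.v (H72.pt 0) = 4 by decide +kernel] at h5
    exact eight_ne (F := F) (by push_cast at h5; linear_combination -h5)

theorem S0465_of (h : H75.BM.Ord ℚ) : ∃ (F : Type) (_ : Field F) (_ : Fintype F), CharP F 2 ∧
    ∃ H : Subgroup (GL (Fin 4370) F), IsB H := by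
  have := finite0 h
  have := (isB0 h).1
  obtain ⟨b, hb, e⟩ := exists_E4 (F := ℚ)
  refine ⟨ZMod 2, inferInstance, inferInstance, inferInstance, red2 (G := B0 ℚ) (p := 3) (m := 2185)
    (by decide) (by rw [(isB0 h).2]; norm_num) (V := E4 ℚ r0) (repB h)
    (x := pB _ ⟨z0 ℚ, mem_CZ.2 (Subtype.ext (qq_comm_z _).symm)⟩)
    (fun a => e (congrArg Subtype.val (LinearMap.congr_fun a ⟨b, hb⟩))) (by norm_num) finrank_E4
    (isB0 h).2⟩

end H23.Om
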