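import Cfsg.Agent.H23.BRc

/-! Invariants of the stabiliser of a minimal vector in degree 24. -/

set_option autoImplicit false
set_option linter.unusedSectionVars false
open Cfsg H79 H17.Gr Matrix
open H71.Gr hiding GG
open H72 (pt)
open H23.Om
open scoped Classical

namespace H23.Np
attribute [-simp] Fintype.sum_option

variable {F : Type} [Field F] [Good F]

/-- the sign change of a codeword -/
noncomputable def sgc (c : C) : Co0 := sgnC (support₂ c.1) (support_mem_GC c.2)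

theorem sgc_apply (c : C) (v : leechLattice) (i : GolayPt) :
    cv F (sgc c • v : leechLattice) i = ch (c.1 i) * cv F v i := by
  rw [cv, sgc, sgnC_apply, cv]
  rcases H79.zmod2_cases (c.1 i) with h | h <;> simp [support₂, h]

theorem mat_sgc (c : C) : mat F (sgc c) = diagonal fun i => ch (c.1 i) :=
  mat_ext fun v => funext fun i => by rw [mat_mulVec, sgc_apply, mulVec_diagonal]

theorem sep {i j : GolayPt} (h : i ≠ j) (h' : ¬ ((i = pt 0 ∨ i = pt 1) ∧ (j = pt 0 ∨ j = pt 1))) :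
    ∃ c : C, c.1 (pt 0) = 0 ∧ c.1 (pt 1) = 0 ∧ c.1 i + c.1 j = 1 := by
  have k : ∀ i j : GolayPt, i ≠ j → ¬ ((i = pt 0 ∨ i = pt 1) ∧ (j = pt 0 ∨ j = pt 1)) →
      ∃ k ∈ List.range' 2 10, H72.word (gN k) i + H72.word (gN k) j = 1 := by decide +kernel
  obtain ⟨k, hk, e⟩ := k i j h h'
  rw [List.mem_range'_1] at hk
  refine ⟨gC k, ?_, ?_, by rwa [gC_coe (by omega)]⟩
  · rw [gC_pt (by omega) (by omega), if_neg (by omega)]
  · rw [gC_pt (by omega) (by omega), if_neg (by omega)]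

/-- the bilinear form of a matrix on lattice vectors -/
noncomputable def bt2 (N : MM F) (v w : V) : F := cv F v ⬝ᵥ N *ᵥ cv F w

theorem bt2_vA (N : MM F) {i j k l : GolayPt} (a b c d : ZMod 2) :
    bt2 N (vA i j a b) (vA k l c d) = 16 * (ch a * ch c * N i k + ch a * ch d * N i l +
      ch b * ch c * N j k + ch b * ch d * N j l) := by
  have e : ∀ i j a b, cv F (vA i j a b) = Pi.single i (4 * ch a) + Pi.single j (4 * ch b) :=
    fun i j a b => funext fun l => by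
      simp [cv, vA_apply, Pi.single_apply]
  simp only [bt2, e, mulVec_add, add_dotProduct, dotProduct_add, single_dotProduct, mulVec_single,
    MulOpposite.op_mul, Pi.smul_apply, col_apply, MulOpposite.smul_eq_mul_unop,
    MulOpposite.unop_op, MulOpposite.unop_mul]
  ring

theorem bt2_smul {N : MM F} {ψ : Co0} (h : mat F ψ * N * (mat F ψ)ᵀ = N) (v w : leechLattice) :
    bt2 N (ψ • v : leechLattice) (ψ • w : leechLattice) = bt2 N v w := by
  rw [bt2, ← mat_mulVec, ← mat_mulVec]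
  nth_rewrite 1 [← h]
  rw [mulVec_mulVec, Matrix.mul_assoc, mat_transpose_mul, Matrix.mul_one, ← mulVec_mulVec,
    dotProduct_mulVec, ← mulVec_transpose, mulVec_mulVec, mat_transpose_mul, one_mulVec, bt2]

theorem bt2_neg_left (N : MM F) (v w : V) : bt2 N (-v) w = -bt2 N v w := by simp [bt2, cv_neg]
theorem bt2_neg_right (N : MM F) (v w : V) : bt2 N v (-w) = -bt2 N v w := by
  simp [bt2, cv_neg, mulVec_neg]

theorem orth_conj {r w w' : leechLattice} (hr : sqNorm r.1 = 32) (hw : sqNorm w.1 = 32)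
    (hw' : sqNorm w'.1 = 32) (h : dotInt r.1 w = 0) (h' : dotInt r.1 w' = 0) :
    ∃ ψ : Co0, ψ • r = r ∧ (ψ • w = w' ∨ ψ • w = -w') := by
  obtain ⟨g, a, b⟩ := orth_pair_canon r w hr hw h
  obtain ⟨g', a', b'⟩ := orth_pair_canon r w' hr hw' h'
  refine ⟨g'⁻¹ * g, by rw [mul_smul, a, ← a', inv_smul_smul], ?_⟩
  rw [mul_smul, inv_smul_eq_iff, inv_smul_eq_iff, co0_neg]
  rcases b with b | b <;> rcases b' with b' | b' <;> simp [b, b']

theorem inv0 {N : MM F} (h : ∀ ψ : Co0, ψ • r0 = r0 → mat F ψ * N * (mat F ψ)ᵀ = N) :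
    ∃ p q : F, N = p • 1 + q • Rm F r0 := by
  have h01 : pt 0 ≠ pt 1 := by decide
  have h1 : ∀ i j, i ≠ j → ¬ ((i = pt 0 ∨ i = pt 1) ∧ (j = pt 0 ∨ j = pt 1)) → N i j = 0 := by
    intro i j a b
    obtain ⟨c, c0, c1, e⟩ := sep a b
    have := congrFun (congrFun (h (sgc c) (Sh.ext (funext fun l => ?_))) i) j
    · rw [mat_sgc, diagonal_transpose, mul_diagonal, diagonal_mul, mul_right_comm, ← ch_add, e,
        ch_one] at this
      exact mul_left_cancel₀ two_ne (by linear_combination -this)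
    · refine Int.cast_injective (α := ℚ) ((sgc_apply (F := ℚ) c r0.1 l).trans ?_)
      show _ * ((vA (pt 0) (pt 1) 0 1 l : ℤ) : ℚ) = vA (pt 0) (pt 1) 0 1 l
      rw [vA_apply]
      by_cases a : l = pt 0
      · simp [a, c0]
      · by_cases b : l = pt 1 <;> simp [a, b, c1]
  have h2 : ∀ i j, i ≠ j → i ≠ pt 0 → i ≠ pt 1 → j ≠ pt 0 → j ≠ pt 1 →
      N i i + N j j = N (pt 0) (pt 0) + N (pt 0) (pt 1) + N (pt 1) (pt 0) + N (pt 1) (pt 1) ∧
      N (pt 0) (pt 0) - N (pt 0) (pt 1) + N (pt 1) (pt 0) - N (pt 1) (pt 1) = 0 ∧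
      N (pt 0) (pt 0) + N (pt 0) (pt 1) - N (pt 1) (pt 0) - N (pt 1) (pt 1) = 0 := by
    intro i j a b c d e
    obtain ⟨ψ, k1, k2⟩ := orth_conj (r := r0.1) (w := ⟨vA (pt 0) (pt 1) 0 0, vA_mem _ _ _ _⟩)
      (w' := ⟨vA i j 0 0, vA_mem _ _ _ _⟩) r0.2 (sqNorm_vA _ _ _ _ h01) (sqNorm_vA _ _ _ _ a)
      (show dotInt (vA (pt 0) (pt 1) 0 1) (vA (pt 0) (pt 1) 0 0) = 0 by decide +kernel) (by
        show dotInt (vA _ _ _ _) (vA _ _ _ _) = 0
        simp [dot_vA, vA_apply, b.symm, c.symm, d.symm, e.symm])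
    have k := bt2_smul (h ψ (Subtype.ext k1))
    have k3 := k ⟨vA (pt 0) (pt 1) 0 0, vA_mem _ _ _ _⟩ ⟨vA (pt 0) (pt 1) 0 0, vA_mem _ _ _ _⟩
    have k4 := k ⟨vA (pt 0) (pt 1) 0 0, vA_mem _ _ _ _⟩ r0.1
    have k5 := k r0.1 ⟨vA (pt 0) (pt 1) 0 0, vA_mem _ _ _ _⟩
    rw [k1] at k4 k5
    have z1 := h1 i j a (by tauto)
    have z2 := h1 j i a.symm (by tauto)
    have z3 := h1 i _ b (by tauto)
    have z4 := h1 i _ c (by tauto)
    have z5 := h1 j _ d (by tauto)
    have z6 := h1 j _ e (by tauto)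
    have z7 := h1 _ i b.symm (by tauto)
    have z8 := h1 _ i c.symm (by tauto)
    have z9 := h1 _ j d.symm (by tauto)
    have z10 := h1 _ j e.symm (by tauto)
    have r : (r0.1 : V) = vA (pt 0) (pt 1) 0 1 := rfl
    rcases k2 with k2 | k2 <;> rw [k2] at k3 k4 k5 <;>
      simp only [r, AddSubgroup.coe_neg, bt2_neg_left, bt2_neg_right, bt2_vA, z1, z2, z3, z4, z5, z6,
        z7, z8, z9, z10, ch_zero, ch_one] at k3 k4 k5 <;>
      exact ⟨mul_left_cancel₀ sixteen_ne (by linear_combination k3),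
        mul_left_cancel₀ sixteen_ne (by linear_combination -k4),
        mul_left_cancel₀ sixteen_ne (by linear_combination -k5)⟩
  obtain ⟨-, e1, e2⟩ := h2 (pt 2) (pt 3) (by decide) (by decide) (by decide) (by decide) (by decide)
  have e3 : N (pt 1) (pt 1) = N (pt 0) (pt 0) :=
    mul_left_cancel₀ two_ne (by linear_combination -e1 - e2)
  have e4 : N (pt 1) (pt 0) = N (pt 0) (pt 1) :=
    mul_left_cancel₀ two_ne (by linear_combination e1 - e2)
  have h3 : ∀ i, i ≠ pt 0 → i ≠ pt 1 → N i i = N (pt 0) (pt 0) + N (pt 0) (pt 1) := fun i a b => by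
    obtain ⟨j, l, c1, c2, c3, c4, c5, c6, c7⟩ := (by decide +kernel : ∀ i : GolayPt, ∃ j l : GolayPt,
      i ≠ j ∧ i ≠ l ∧ j ≠ l ∧ j ≠ pt 0 ∧ j ≠ pt 1 ∧ l ≠ pt 0 ∧ l ≠ pt 1) i
    have x := (h2 i j c1 a b c4 c5).1
    have y := (h2 i l c2 a b c6 c7).1
    have z := (h2 j l c3 c4 c5 c6 c7).1
    exact mul_left_cancel₀ two_ne (by linear_combination x + y - z + e3 + e4)
  have h16 := sixteen_ne (F := F)
  refine ⟨N (pt 0) (pt 0) + N (pt 0) (pt 1), -N (pt 0) (pt 1) / 16, Matrix.ext fun i j => ?_⟩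
  have r : ∀ l, cv F r0.v l = (if l = pt 0 then 4 else 0) + if l = pt 1 then -4 else 0 := fun l => by
    show ((vA (pt 0) (pt 1) 0 1 l : ℤ) : F) = _
    rw [vA_apply]; split_ifs <;> simp
  simp only [Rm, Matrix.add_apply, Matrix.smul_apply, vecMulVec_apply, r, one_apply, smul_eq_mul]
  by_cases a : (i = pt 0 ∨ i = pt 1) ∧ (j = pt 0 ∨ j = pt 1)
  · obtain ⟨rfl | rfl, rfl | rfl⟩ := a <;> simp [h01, h01.symm, e3, e4] <;> field_simp <;> ring
  · by_cases b : i = j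
    · subst b
      have : i ≠ pt 0 ∧ i ≠ pt 1 := by tauto
      simp [h3 i this.1 this.2, this]
    · rw [h1 i j b a, if_neg b]
      rcases not_and_or.1 a with a | a <;> simp [not_or.1 a]

theorem Rm_smul (ψ : Co0) (r : Sh) : Rm F (ψ • r) = mat F ψ * Rm F r * (mat F ψ)ᵀ := by
  rw [Rm, Rm, Sh.v, Sh.v, Sh.smul_val, ← mat_mulVec, mul_vecMulVec, vecMulVec_mul, vecMul_transpose]

theorem sh_trans (r s : Sh) : ∃ ψ : Co0, ψ • r = s :=
  let ⟨g, h⟩ := H79.trans32 r.1 s.1 r.2 s.2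
  ⟨g, Subtype.ext h⟩

/-- an equivariant family of matrices over the minimal vectors -/
theorem fam {N : Sh → MM F} (h : ∀ (ψ : Co0) r, N (ψ • r) = mat F ψ * N r * (mat F ψ)ᵀ) :
    ∃ p q : F, ∀ r, N r = p • 1 + q • Rm F r := by
  obtain ⟨p, q, e⟩ := inv0 (N := N r0) fun ψ a => by rw [← h, a]
  refine ⟨p, q, fun r => ?_⟩
  obtain ⟨ψ, rfl⟩ := sh_trans r0 r
  rw [h, e, Rm_smul, Matrix.mul_add, Matrix.add_mul, Matrix.mul_smul, Matrix.mul_smul,
    Matrix.smul_mul, Matrix.smul_mul, Matrix.mul_one, mat_mul_transpose]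

/-- `Co0` is irreducible in degree 24 -/
theorem irr24 (R : Submodule F (GolayPt → F)) (h : ∀ (ψ : Co0), ∀ v ∈ R, mat F ψ *ᵥ v ∈ R)
    {v : GolayPt → F} (hv : v ∈ R) {i : GolayPt} (hi : v i ≠ 0) : R = ⊤ := by
  have h1 : ∀ s : Finset GolayPt, i ∉ s → ∃ u ∈ R, u i ≠ 0 ∧ ∀ j ∈ s, u j = 0 := fun s => by
    induction s using Finset.induction_on with
    | empty => exact fun _ => ⟨v, hv, hi, by simp⟩
    | insert j s _ ih =>
      intro a
      rw [Finset.mem_insert, not_or] at a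
      obtain ⟨u, b, c, d⟩ := ih a.2
      obtain ⟨o, ho, e1, e2⟩ := exists_GC_sep (Ne.symm a.1)
      refine ⟨u + mat F (sgc ⟨ind o, (mem_GC_iff o).1 ho⟩) *ᵥ u, add_mem b (h _ _ b), ?_, fun l hl => ?_⟩
      · simp only [mat_sgc, Pi.add_apply, mulVec_diagonal, ind, e2, if_false, ch_zero, one_mul]
        rw [← two_mul]; exact mul_ne_zero two_ne c
      · simp only [mat_sgc, Pi.add_apply, mulVec_diagonal, ind]
        rcases Finset.mem_insert.1 hl with rfl | hl
        · simp [e1]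
        · simp [d l hl]
  obtain ⟨u, a, b, c⟩ := h1 (Finset.univ.erase i) (by simp)
  have h2 : ∀ j, (Pi.single j 1 : GolayPt → F) ∈ R := fun j => by
    obtain ⟨σ, e⟩ := M24_trans1 i j
    have := R.smul_mem (u i)⁻¹ (h (permC σ) _ a)
    convert this using 1
    funext l
    simp only [mulVec, dotProduct, mat_permC, Pi.smul_apply, ite_mul, one_mul, zero_mul,
      Finset.sum_ite_eq', Finset.mem_univ, if_true, smul_eq_mul, Pi.single_apply]
    split_ifs with k
    · rw [k, ← e, Equiv.symm_apply_apply, inv_mul_cancel₀ b]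
    · rw [c (σ.1.symm l) (by simpa [Equiv.symm_apply_eq, e] using k), mul_zero]
  refine eq_top_iff.2 fun x _ => ?_
  rw [pi_eq_sum_univ' x]
  exact Submodule.sum_mem _ fun j _ => R.smul_mem _ (h2 j)

end H23.Np
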