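import Cfsg.Agent.H23.BRg

/-! Invariant subspaces of the Griess algebra. -/

set_option autoImplicit false
set_option linter.unusedSectionVars false
open Cfsg H78 H79 H17.Gr Matrix
open H71.Gr hiding GG
open H75.BM (GG)
open H72 (pt)
open H23.Om
open scoped Classical

namespace H23.Np
attribute [-simp] Fintype.sum_option

variable {F : Type} [Field F] [Good F]

theorem act_GG (n : Lift F) : Lift.act n ∈ GG F [] := CZ_le_GG (mem_CZ.2 (act_comm n))
theorem tau_GG : tau F ∈ GG F [] := by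
  have := mul_mem (inv_mem (qq_GG (F := F) 4096)) (H75.BM.sM_mem (F := F) (T := []))
  rwa [show H75.BM.sM F = sM F from rfl, sM_eq, inv_mul_cancel_left] at this

theorem act_inW (n : Lift F) (w : WW F) : (Lift.act n).1 (inW w) = inW (n.γ * w * (mat F n.ψ)ᵀ) := by
  refine B.ext ?_ (funext fun r => ?_) ?_ <;>
    simp [Lift.act_apply, Lift.actL_A, Lift.actL_x, Lift.actL_w]
theorem act_inW' (n : Lift F) (w : WW F) : ∃ u, (Lift.act n).1 (inW u) = inW w :=
  ⟨_, (congrArg _ (act_inW n⁻¹ w).symm).trans (by rw [map_inv]; exact mon_inv _ _)⟩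
theorem act_XX (n : Lift F) (r : Sh) :
    (Lift.act n).1 (XX F r) = (ch (n.ε r.1) : F) • XX F (n.ψ • r) := by
  refine B.ext ?_ (funext fun s => ?_) ?_
  · simp [Lift.act_apply, Lift.actL_A]
  · obtain ⟨s, rfl⟩ := (MulAction.toPerm n.ψ).surjective s
    rw [Lift.act_apply, MulAction.toPerm_apply, Lift.actL_x']
    simp only [B.smul_x, Pi.smul_apply, XX_x, ← Sh.smul_neg, smul_left_cancel_iff, smul_eq_mul]
    split_ifs with e
    · rcases e with rfl | rfl
      · rfl
      · rw [Sh.neg_val, Lift.ε_neg]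
    · simp
  · simp [Lift.act_apply, Lift.actL_w]
theorem z_inW (w : WW F) : (Lift.act (Lift.z F)).1 (inW w) = -inW w := by
  rw [Lift.act_apply, Lift.actL_z]; exact B.ext (by simp) (by simp) rfl

theorem tau3 (b : B F) : (tau F).1 ((tau F).1 ((tau F).1 b)) = b :=
  congrArg (fun g : Mon F => g.1 b) ((pow_three (tau F)).symm.trans tau_pow_three)

/-- functions on the code modulo the all-one word -/
def EY (F : Type) : Type := {Y : C → GolayPt → F // ∀ d i, Y (d + Om) i = Y d i}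
/-- the zero function -/
def y0 : EY F := ⟨0, fun _ _ => rfl⟩
/-- symmetric matrices with zero diagonal -/
def EP (F : Type) [Field F] : Type := {p : GolayPt → GolayPt → F // Pv p}
/-- the zero matrix -/
def p0 : EP F := ⟨0, fun _ _ => rfl, fun _ => rfl⟩

/-- coordinates with trivial diagonal and octad parts -/
def cd0 (p q r : EP F) (X Y Z : EY F) : Cd F :=
  ⟨0, p.1, q.1, r.1, 0, X.1, Y.1, Z.1, p.2, q.2, r.2,
    fun _ => ⟨fun _ => rfl, fun _ => rfl, fun _ _ => rfl, .inr rfl⟩, X.2, Y.2, Z.2⟩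
theorem rot_cd0 (p q r : EP F) (X Y Z : EY F) : (cd0 p q r X Y Z).rot = cd0 q r p Y Z X :=
  Cd.ext rfl rfl rfl rfl (funext fun o => by
    simp only [Cd.rot, cd0, Pi.zero_apply, Hd_zero, Dd_zero]) rfl rfl rfl

/-- the second part of the 98304 -/
def w2 (Y : EY F) : WW F := Matrix.of Y.1
/-- the third part of the 98304 -/
def w3 (Y : EY F) : WW F := Matrix.of fun d i => ch (d.1 i + qw d) * Y.1 d i

theorem ex0 (v : V) : ex (0 : Sh → F) v = 0 := by unfold ex; split_ifs <;> rfl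
theorem rel_w2 (Y : EY F) : Rel (inW (w2 Y)) (cd0 p0 p0 p0 y0 Y y0) :=
  ⟨by simp [cd0, p0], by simp [cd0, p0, ex0], by simp [cd0, ex0], by simp [cd0, y0, ex0],
    by simp [cd0, y0, w2]⟩
theorem rel_w3 (Y : EY F) : Rel (inW (w3 Y)) (cd0 p0 p0 p0 y0 y0 Y) :=
  ⟨by simp [cd0, p0], by simp [cd0, p0, ex0], by simp [cd0, ex0], by simp [cd0, y0, ex0],
    by simp [cd0, y0, w3]⟩
theorem tau_w3 (Y : EY F) : (tau F).1 (inW (w3 Y)) = inW (w2 Y) :=
  (rot_cd0 p0 p0 p0 y0 y0 Y ▸ (rel_w3 Y).tau).left_unique (rel_w2 Y)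
theorem tau_w2 (Y : EY F) : (tau F).1 ((tau F).1 (inW (w2 Y))) = inW (w3 Y) := by
  rw [← tau_w3, tau3]
theorem exists_w23 (w : WW F) : ∃ Y Z, w = w2 Y + w3 Z :=
  let ⟨c, h⟩ := exists_cd (inW w)
  ⟨⟨c.Y2, c.e2⟩, ⟨c.Y3, c.e3⟩, Matrix.ext h.hw⟩

variable (F) in
/-- the second involution of the four-group normalised by triality -/
noncomputable def x8 : Lift F := Lift.X F (e8 none)
theorem x8_w2 (Y : EY F) : (Lift.act (x8 F)).1 (inW (w2 Y)) = inW (w2 Y) :=
  ((rel_w2 Y).X8 none).left_unique (by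
    rw [show (cd0 p0 p0 p0 y0 Y y0).sg 1 0 1 = cd0 p0 p0 p0 y0 Y y0 from
      Cd.ext rfl rfl rfl rfl rfl (by simp [Cd.sg, cd0, y0]; rfl) (by simp [Cd.sg, cd0])
        (by simp [Cd.sg, cd0, y0]; rfl)]
    exact rel_w2 Y)
theorem x8_w3 (Y : EY F) : (Lift.act (x8 F)).1 (inW (w3 Y)) = -inW (w3 Y) := by
  rw [← map_neg]
  refine (act_inW _ _).trans (congrArg _ (Matrix.ext fun d i => ?_))
  have := ((rel_w3 Y).X8 none).hw d i
  rw [show Lift.X F (e8 none) = x8 F from rfl, act_inW] at this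
  simpa [Cd.sg, cd0, y0, w3] using this
theorem x8_A {c : B F} (h1 : c.x = 0) (h2 : c.w = 0) : (Lift.act (x8 F)).1 c = c := by
  refine B.ext ?_ (funext fun r => ?_) ?_ <;>
    simp [Lift.act_apply, Lift.actL_A, Lift.actL_x, Lift.actL_w, x8, Lift.X, h1, h2]

/-- the minimal vectors `(-3, 1, …, 1)` -/
def sX (k : GolayPt) : Sh := ⟨⟨vX (0 : C) k, vX_mem _ _⟩, sqNorm_vX _ _⟩
/-- the minimal vectors `(4, ± 4, 0, …)` -/
def sA {i j : GolayPt} (h : i ≠ j) (b : ZMod 2) : Sh := ⟨⟨vA i j 0 b, vA_mem _ _ _ _⟩, sqNorm_vA _ _ _ _ h⟩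
variable (F) in
/-- the corresponding coordinate function -/
noncomputable def yk (k : GolayPt) : EY F :=
  ⟨fun d l => if (d = 0 ∨ d = Om) ∧ l = k then 1 else 0, fun d l => by
    simp only [add_eq_right, add_eq_zero_iff_eq_neg, show -Om = Om from
      neg_eq_of_add_eq_zero_left (c_add_self _), or_comm]⟩

theorem ex_XX_ty (r : Sh) {v : V} (h : ty v ≠ ty r.v) (h' : ty v ≠ ty (-r.v)) :
    ex (XX F r).x v = 0 := by
  rw [ex_XX, if_neg]
  rintro (rfl | rfl)
  exacts [h rfl, h' rfl]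
theorem ex_XX_vO (r : Sh) (h : 1 ≠ ty r.v) (h' : 1 ≠ ty (-r.v)) (o : C) (s : W) :
    ex (XX F r).x (vO o s) = 0 := by
  by_cases e : wt o = 8
  · exact ex_XX_ty r (by rwa [ty_vO (ne_zero_of_wt e)]) (by rwa [ty_vO (ne_zero_of_wt e)])
  · exact ex_of_not _ fun a => e (isSh_vO.1 a).1

theorem rel_sX (k : GolayPt) : Rel (XX F (sX k)) (cd0 p0 p0 p0 (yk F k) y0 y0) := by
  have e : (sX k).v = vX (0 : C) k := rfl
  have e' : -(sX k).v = vX Om k := by rw [e, vX_neg]; simp
  refine ⟨by simp [cd0, p0], fun i j s t => ?_, fun o s => ?_, fun d i => ?_, by simp [cd0, y0]⟩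
  · rw [ex_XX_ty _ (by simp [e, ty_vA, ty_vX]) (by simp [e', ty_vA, ty_vX])]; simp [cd0, p0]
  · exact ex_XX_vO _ (by simp [e, ty_vX]) (by simp [e', ty_vX]) o s
  · rw [ex_XX, e', e]
    simp only [cd0, yk, vX_eq_iff, ← or_and_right]
    split_ifs with a
    · rcases a.1 with rfl | rfl <;> simp
    · simp
theorem tau_yk (k : GolayPt) : (tau F).1 (inW (w2 (yk F k))) = XX F (sX k) :=
  (rot_cd0 p0 p0 p0 y0 (yk F k) y0 ▸ (rel_w2 _).tau).left_unique (rel_sX k)

/-- symmetrisation -/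
def symA : MM F →ₗ[F] B F where
  toFun A := inA (A + Aᵀ) (by rw [transpose_add, transpose_transpose, add_comm])
  map_add' A A' := B.ext (by simp only [inA_A, B.add_A, transpose_add]; abel) (by simp) (by simp)
  map_smul' c A := B.ext (by simp) (by simp) (by simp)
theorem symA_A (A : MM F) : (symA A).A = A + Aᵀ := rfl
@[simp] theorem symA_x (A : MM F) : (symA A).x = 0 := rfl
@[simp] theorem symA_w (A : MM F) : (symA A).w = 0 := rfl
theorem act_symA (n : Lift F) (A : MM F) :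
    (Lift.act n).1 (symA A) = symA (mat F n.ψ * A * (mat F n.ψ)ᵀ) := by
  refine B.ext ?_ (funext fun r => ?_) ?_ <;>
    simp [Lift.act_apply, Lift.actL_A, Lift.actL_x, Lift.actL_w, symA_A, Matrix.mul_add,
      Matrix.add_mul, Matrix.mul_assoc]
theorem n24 : (24 : F) ≠ 0 := by
  rw [show (24 : F) = 3 * 8 by norm_num]; exact mul_ne_zero three_ne eight_ne

theorem ex_add' (x y : Sh → F) (v : V) : ex (x + y) v = ex x v + ex y v := by
  unfold ex; split_ifs
  exacts [rfl, (add_zero _).symm]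

theorem tau_sA {i j : GolayPt} (h : i ≠ j) :
    (tau F).1 (XX F (sA h 0) + XX F (sA h 1)) = symA (single i j 1) := by
  let p : EP F := ⟨fun k l => if k = i ∧ l = j ∨ l = i ∧ k = j then 1 else 0,
    fun k l => if_congr or_comm rfl rfl, fun k => if_neg (by
      rintro (⟨rfl, e⟩ | ⟨rfl, e⟩) <;> exact h e)⟩
  have e : ∀ b, (sA h b).v = vA i j 0 b := fun _ => rfl
  have h1 : Rel (XX F (sA h 0) + XX F (sA h 1)) (cd0 p0 p p0 y0 y0 y0) := by
    refine ⟨by simp [cd0, p0], fun k l s t => ?_, fun o s => ?_, fun d l => ?_, by simp [cd0, y0]⟩ <;>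
      rw [B.add_x, ex_add']
    · simp only [ex_XX, e, vA_neg, eq_comm (a := vA k l s t), vA_eq_iff h, cd0, p, p0,
        eq_comm (a := k), eq_comm (a := l)]
      by_cases a : i = k ∧ j = l ∨ i = l ∧ j = k
      · rw [if_pos a]
        rcases a with ⟨rfl, rfl⟩ | ⟨rfl, rfl⟩ <;>
        rcases H79.zmod2_cases s with rfl | rfl <;> rcases H79.zmod2_cases t with rfl | rfl <;>
          simp [h, h.symm, z2_add_self]
      · rw [if_neg a, if_neg (by tauto), if_neg (by tauto)]; simp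
    · rw [ex_XX_vO _ (by simp [e, ty_vA]) (by simp [e, vA_neg, ty_vA]),
        ex_XX_vO _ (by simp [e, ty_vA]) (by simp [e, vA_neg, ty_vA])]
      simp [cd0]
    · rw [ex_XX_ty _ (by simp [e, ty_vA, ty_vX]) (by simp [e, vA_neg, ty_vA, ty_vX]),
        ex_XX_ty _ (by simp [e, ty_vA, ty_vX]) (by simp [e, vA_neg, ty_vA, ty_vX])]
      simp [cd0, y0]
  refine (rot_cd0 p0 p p0 y0 y0 y0 ▸ h1.tau).left_unique ⟨fun k l => ?_, by simp [cd0, p0, ex0, symA],
    by simp [cd0, ex0, symA], by simp [cd0, y0, ex0, symA], by simp [cd0, y0, symA]⟩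
  simp only [symA_A, cd0, p, Matrix.add_apply, transpose_apply, single_apply, Pi.zero_apply, ite_self,
    zero_add, eq_comm (a := i), eq_comm (a := j)]
  rw [ite_or_of_not]
  rintro ⟨rfl, rfl⟩ ⟨a, -⟩
  exact h a.symm

theorem tau_off {A : MM F} (h : Aᵀ = A) (h' : ∀ i, A i i = 0) :
    pX ((tau F).1 (inA A h)) = (tau F).1 (inA A h) ∧
      pX ((tau F).1 ((tau F).1 (inA A h))) = (tau F).1 ((tau F).1 (inA A h)) := by
  let p : EP F := ⟨A, fun i j => (congrFun (congrFun h j) i), h'⟩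
  have h1 : Rel (inA A h) (cd0 p p0 p0 y0 y0 y0) :=
    ⟨by simp [cd0, p], by simp [cd0, p0, ex0], by simp [cd0, ex0], by simp [cd0, y0, ex0],
      by simp [cd0, y0]⟩
  have h2 := rot_cd0 p p0 p0 y0 y0 y0 ▸ h1.tau
  have h3 := rot_cd0 p0 p0 p y0 y0 y0 ▸ h2.tau
  exact ⟨B.ext (Matrix.ext fun i j => by simp [h2.hM, cd0, p0]) rfl
    (Matrix.ext fun i j => by simp [h2.hw, cd0, y0]), B.ext (Matrix.ext fun i j => by
      simp [h3.hM, cd0, p0]) rfl (Matrix.ext fun i j => by simp [h3.hw, cd0, y0])⟩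

section span
variable {K : Submodule F (B F)} (h : ∀ n : Lift F, ∀ b ∈ K, (Lift.act n).1 b ∈ K)
include h

theorem XX_mem {s : Sh} (hs : XX F s ∈ K) (r : Sh) : XX F r ∈ K := by
  obtain ⟨ψ, rfl⟩ := sh_trans s r
  obtain ⟨n, rfl⟩ := lift_surj (F := F) ψ
  have := h n _ hs
  rw [act_XX] at this
  exact (K.smul_mem_iff (ch_ne_zero _)).1 this

omit h in
theorem pX_mem (hs : ∀ r, XX F r ∈ K) (b : B F) : pX b ∈ K := by
  have : (2 : F) • pX b = ∑ r, b.x r • XX F r := by
    refine bil_ext fun d => ?_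
    change bilF F _ d = bilF F _ d
    rw [map_sum, LinearMap.sum_apply]
    simp only [map_smul, LinearMap.smul_apply, smul_eq_mul]
    change 2 * bil _ _ = ∑ r, _ * bil _ _
    simp only [bil, pX_A, pX_x, pX_w, XX_A, XX_w, Matrix.zero_mul, trace_zero, transpose_zero,
      mul_zero, zero_add, add_zero, mul_comm ((XX F _).x _), sum_XX, d.x_neg, Finset.mul_sum]
    exact Finset.sum_congr rfl fun r _ => by ring
  exact (K.smul_mem_iff two_ne).1 (this ▸ K.sum_mem fun r _ => K.smul_mem _ (hs r))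

theorem inA_mem (hu : uB F ∈ K) (hA : ∀ A h, (∀ i, A i i = 0) → inA A h ∈ K) (A : MM F)
    (hs : Aᵀ = A) : inA A hs ∈ K := by
  have h1 : ∀ i j, symA (single i i 1) - symA (single j j (1 : F)) ∈ K := fun i j => by
    rcases eq_or_ne i j with rfl | a
    · simp
    obtain ⟨ψ, k1, k2⟩ : ∃ ψ : Co0, ψ • (lA 0 1 0 0) = (sA a 0).1 ∧
        (ψ • lA 2 3 0 0 = (sA a 1).1 ∨ ψ • lA 2 3 0 0 = -(sA a 1).1) := by
      obtain ⟨g, a1, b1⟩ := orth_pair_canon (lA 0 1 0 0) (lA 2 3 0 0) (by decide +kernel)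
        (by decide +kernel) (by decide +kernel)
      obtain ⟨g', a2, b2⟩ := orth_pair_canon (sA a 0).1 (sA a 1).1 (sA a 0).2 (sA a 1).2 (by
        show dotInt (vA _ _ _ _) (vA _ _ _ _) = 0
        simp [dot_vA, vA_apply, a, a.symm])
      refine ⟨g'⁻¹ * g, by rw [mul_smul, a1, ← a2, inv_smul_smul], ?_⟩
      rw [mul_smul, inv_smul_eq_iff, inv_smul_eq_iff, co0_neg]
      rcases b1 with b | b <;> rcases b2 with b' | b' <;> simp [b, b']
    obtain ⟨n, rfl⟩ := lift_surj (F := F) ψ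
    have k3 := h n _ (hA (vecMulVec (cv F (lA 0 1 0 0)) (cv F (lA 2 3 0 0)) +
      (vecMulVec (cv F (lA 0 1 0 0)) (cv F (lA 2 3 0 0)))ᵀ) (symA _).A_symm fun l => by
        have : (lA 0 1 0 0).1 l * (lA 2 3 0 0).1 l = 0 := by revert l; decide +kernel
        simp only [Matrix.add_apply, transpose_apply, vecMulVec_apply, cv, ← Int.cast_mul, this]
        simp)
    have k4 : symA (vecMulVec (cv F (sA a 0).v) (cv F (sA a 1).v)) =
        (16 : F) • (symA (single i i 1) - symA (single j j 1)) := by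
      refine B.ext (Matrix.ext fun k l => ?_) (by simp) (by simp)
      simp only [symA_A, B.smul_A, B.sub_A, Matrix.add_apply, transpose_apply, vecMulVec_apply, cv, sA,
        Sh.v, vA_apply, Matrix.smul_apply, Matrix.sub_apply, single_apply, eq_comm (a := i),
        eq_comm (a := j)]
      by_cases b1 : k = i <;> by_cases b2 : l = i <;> by_cases b3 : k = j <;> by_cases b4 : l = j <;>
        simp_all <;> norm_num
    change (Lift.act n).1 (symA _) ∈ K at k3
    rw [act_symA, mul_vecMulVec, vecMulVec_mul, vecMul_transpose, mat_mulVec, mat_mulVec, k1] at k3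
    rw [← K.smul_mem_iff (sixteen_ne (F := F)), ← k4]
    rcases k2 with k2 | k2 <;> rw [k2] at k3
    · exact k3
    · rwa [AddSubgroup.coe_neg, cv_neg, vecMulVec_neg, map_neg, neg_mem_iff] at k3
  have h2 : ∀ i, symA (single i i (1 : F)) ∈ K := fun i => by
    have k := add_mem (K.sum_mem fun j (_ : j ∈ Finset.univ) => h1 i j) (K.smul_mem (2 : F) hu)
    rw [Finset.sum_sub_distrib, ← map_sum, ← map_sum, show ∑ j, single j j (1 : F) = (1 : MM F) from
      sum_single_one, show symA (1 : MM F) = (2 : F) • uB F from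
        B.ext (by simp [symA_A, uB, two_smul]) (by simp [symA, uB]) (by simp [symA, uB]),
      sub_add_cancel, Finset.sum_const, Finset.card_univ, card_pt, ← Nat.cast_smul_eq_nsmul F,
      map_smul] at k
    exact (K.smul_mem_iff (by exact_mod_cast n24)).1 k
  have h3 : (2 : F) • inA A hs = (2 : F) • inA (A - diagonal A.diag) (by simp [transpose_sub, hs]) +
      ∑ i, A i i • symA (single i i 1) := by
    simp only [← map_smul symA, ← map_sum, smul_single, smul_eq_mul, mul_one, sum_single_eq_diagonal]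
    refine B.ext ?_ (by simp) (by simp)
    simp only [B.add_A, inA_A, symA_A, diagonal_transpose, two_smul]
    change _ = _ + (diagonal A.diag + diagonal A.diag)
    abel
  rw [← K.smul_mem_iff (two_ne (F := F)), h3]
  exact add_mem (K.smul_mem _ (hA _ _ fun i => by simp)) (K.sum_mem fun i _ => K.smul_mem _ (h2 i))

theorem top_of (hu : uB F ∈ K) (hW : ∀ w, inW w ∈ K) {s : Sh} (hX : XX F s ∈ K)
    (hA : ∀ c : B F, c.x = 0 → c.w = 0 → (tau F).1 c ∈ K → (tau F).1 ((tau F).1 c) ∈ K → c ∈ K) :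
    K = ⊤ := by
  have h1 := pX_mem (XX_mem h hX)
  refine eq_top_iff.2 fun b _ => ?_
  rw [show b = pA b + pX b + inW b.w from B.ext (by simp) (by simp) (by simp)]
  exact add_mem (add_mem (inA_mem h hu (fun A a a' => hA _ rfl rfl ((tau_off a a').1 ▸ h1 _)
    ((tau_off a a').2 ▸ h1 _)) _ _) (h1 b)) (hW _)

theorem top_of' (hu : uB F ∈ K) (hW : ∀ w, inW w ∈ K)
    (hA : ∀ c : B F, (tau F).1 c ∈ K → (tau F).1 ((tau F).1 c) ∈ K → c ∈ K) : K = ⊤ :=
  top_of h hu hW (s := sX none) (hA _ (by rw [← tau_yk, tau_w2]; exact hW _)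
    (by rw [← tau_yk, tau3]; exact hW _)) fun c _ _ => hA c

end span

/-- an invariant subspace containing the identity and the 98304 is everything -/
theorem top_of_inv {K : Submodule F (B F)} (h : ∀ g ∈ GG F [], ∀ b ∈ K, g.1 b ∈ K)
    (hu : uB F ∈ K) (hW : ∀ w, inW w ∈ K) : K = ⊤ :=
  top_of' (fun n => h _ (act_GG n)) hu hW fun c _ a => tau3 c ▸ h _ tau_GG _ a

end H23.Np
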