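import Cfsg.Agent.H23.BRh

/-! Invariant trilinear forms on the Griess algebra; irreducibility in degree 196883. -/

set_option autoImplicit false
set_option linter.unusedSectionVars false
open Cfsg H78 H79 H17.Gr Matrix
open H71.Gr hiding GG
open H75.BM (GG)
open H72 (pt)
open H23.Om
open scoped Classical

namespace H23.Np
attribute [-simp] Fintype.sum_option

variable {F : Type} [Field F] [Good F]

theorem fun_eq {m n : Type*} [Fintype m] [Fintype n] [DecidableEq m] [DecidableEq n]
    (f : Matrix m n F →ₗ[F] F) (A : Matrix m n F) :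
    f A = trace (Aᵀ * Matrix.of fun i j => f (single i j 1)) := by
  conv_lhs => rw [matrix_eq_sum_single A]
  simp only [map_sum, trace, diag, mul_apply, transpose_apply, of_apply]
  rw [Finset.sum_comm]
  refine Finset.sum_congr rfl fun i _ => Finset.sum_congr rfl fun j _ => ?_
  rw [← smul_eq_mul, ← map_smul, smul_single, smul_eq_mul, mul_one]

theorem comm_all {L : WW F →ₗ[F] WW F}
    (h : ∀ v ∈ leechLattice, ∀ w, L (rho F v * w) = rho F v * L w) : ∃ N : MM F, ∀ w, L w = w * N := by
  have h1 : ∀ P : Matrix C C F, ∀ w, L (P * w) = P * L w := rho_span two_ne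
    { carrier := {P : Matrix C C F | ∀ w : WW F, L (P * w) = P * L w}
      add_mem' := fun a b w => by rw [Matrix.add_mul, map_add, a, b, Matrix.add_mul]
      zero_mem' := fun w => by simp
      smul_mem' := fun c P a w => by rw [Matrix.smul_mul, map_smul, a, Matrix.smul_mul] } h
  refine ⟨Matrix.of fun i j => L (single 0 i 1) 0 j, fun w => Matrix.ext fun d j => ?_⟩
  conv_lhs => rw [matrix_eq_sum_single w]
  simp only [map_sum, Matrix.sum_apply, mul_apply, of_apply]
  rw [Finset.sum_comm]
  refine Finset.sum_congr rfl fun i _ => ?_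
  have : ∀ e, single e i (w e i) = single e (0 : C) (w e i) * single (0 : C) i (1 : F) := fun e => by
    rw [single_mul_single_same, mul_one]
  simp only [this, h1]
  rw [Finset.sum_eq_single d (fun e _ a => single_mul_apply_of_ne _ _ _ _ _ a.symm _) (by simp),
    single_mul_apply_same]

theorem ip_mul (P : Matrix C C F) (N : MM F) (w u : WW F) : ip (P * w * N) u = ip w (Pᵀ * u * Nᵀ) := by
  simp only [ip, transpose_mul, Matrix.mul_assoc]
  rw [trace_mul_comm]; simp only [Matrix.mul_assoc]

theorem rho_sq (r : Sh) : rho F r.v * rho F r.v = 1 := by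
  nth_rewrite 2 [← rho_symm r]; exact rho_mul_transpose r.mem

/-- an invariant trilinear form that vanishes on the identity -/
structure Inv (T : B F →ₗ[F] B F →ₗ[F] B F →ₗ[F] F) : Prop where
  inv : ∀ g ∈ GG F [], ∀ a b c, T (g.1 a) (g.1 b) (g.1 c) = T a b c
  u1 : ∀ b c, T (uB F) b c = 0
  u2 : ∀ a c, T a (uB F) c = 0
  u3 : ∀ a b, T a b (uB F) = 0

namespace Inv
variable {T : B F →ₗ[F] B F →ₗ[F] B F →ₗ[F] F} (h : Inv T)
include h

theorem act (n : Lift F) (a b c : B F) :
    T ((Lift.act n).1 a) ((Lift.act n).1 b) ((Lift.act n).1 c) = T a b c := h.inv _ (act_GG n) a b c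
theorem tau (a b c : B F) : T ((tau F).1 a) ((tau F).1 b) ((tau F).1 c) = T a b c :=
  h.inv _ tau_GG a b c
theorem www (u v w : WW F) : T (inW u) (inW v) (inW w) = 0 := by
  have := h.act (Lift.z F) (inW u) (inW v) (inW w)
  simp only [z_inW, map_neg, LinearMap.neg_apply, neg_neg] at this
  exact mul_left_cancel₀ two_ne (by linear_combination -this)

theorem eq_zero (hX : ∀ w w', T (XX F r0) (inW w) (inW w') = 0) : T = 0 := by
  have h1 : ∀ a w w', T a (inW w) (inW w') = 0 := fun a => (top_of (K :=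
    { carrier := {a | ∀ w w', T a (inW w) (inW w') = 0}
      add_mem' := fun a b w w' => by simp [a w w', b w w']
      zero_mem' := fun w w' => by simp
      smul_mem' := fun c _ a w w' => by simp [a w w'] })
    (fun n a k w w' => by
      obtain ⟨w, e⟩ := act_inW' n w
      obtain ⟨w', e'⟩ := act_inW' n w'
      rw [← e, ← e', h.act, k]) (fun _ _ => h.u1 _ _) h.www hX fun c c1 c2 k k' w w' => by
      obtain ⟨Y, Z, rfl⟩ := exists_w23 w
      obtain ⟨Y', Z', rfl⟩ := exists_w23 w'
      have a1 := h.act (x8 F) c (inW (w2 Y)) (inW (w3 Z'))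
      have a2 := h.act (x8 F) c (inW (w3 Z)) (inW (w2 Y'))
      have a3 := h.tau c (inW (w3 Z)) (inW (w3 Z'))
      have a4 := (h.tau _ _ _).trans (h.tau c (inW (w2 Y)) (inW (w2 Y')))
      simp only [x8_A c1 c2, x8_w2, x8_w3, map_neg, LinearMap.neg_apply] at a1 a2
      rw [tau_w3, tau_w3, k] at a3
      rw [tau_w2, tau_w2, k'] at a4
      simp only [map_add, LinearMap.add_apply]
      exact mul_left_cancel₀ two_ne (by linear_combination -a1 - a2 - 2 * a3 - 2 * a4)).ge trivial
  have h2 : ∀ c a w, T a (inW w) c = 0 := fun c => (top_of' (K :=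
    { carrier := {c | ∀ a w, T a (inW w) c = 0}
      add_mem' := fun a b w w' => by simp [a w w', b w w']
      zero_mem' := fun w w' => by simp
      smul_mem' := fun c _ a w w' => by simp [a w w'] })
    (fun n c k a w => by
      obtain ⟨w, e⟩ := act_inW' n w
      obtain ⟨a, rfl⟩ := (Lift.act n).1.surjective a
      rw [← e, h.act, k]) (fun _ _ => h.u3 _ _) (fun w a w' => h1 a w' w) fun c k k' a w => by
      obtain ⟨Y, Z, rfl⟩ := exists_w23 w
      have a3 := h.tau a (inW (w3 Z)) c
      have a4 := (h.tau _ _ _).trans (h.tau a (inW (w2 Y)) c)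
      rw [tau_w3, k] at a3
      rw [tau_w2, k'] at a4
      simp only [map_add, LinearMap.add_apply, ← a3, ← a4, add_zero]).ge trivial
  have h3 : ∀ b a c, T a b c = 0 := fun b => (top_of_inv (K :=
    { carrier := {b | ∀ a c, T a b c = 0}
      add_mem' := fun a b w w' => by simp [a w w', b w w']
      zero_mem' := fun w w' => by simp
      smul_mem' := fun c _ a w w' => by simp [a w w'] })
    (fun g hg b k a c => by
      obtain ⟨a, rfl⟩ := g.1.surjective a
      obtain ⟨c, rfl⟩ := g.1.surjective c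
      rw [h.inv g hg, k]) h.u2 fun w a c => h2 c a w).ge trivial
  ext a b c
  exact h3 b a c

theorem exists_N : ∃ p q : F, ∀ r w w',
    T (XX F r) (inW w) (inW w') = ip w (rho F r.v * w' * (p • 1 + q • Rm F r)) := by
  let L : Sh → WW F →ₗ[F] WW F := fun r =>
    { toFun := fun w' => Matrix.of fun d i => T (XX F r) (inW (single d i 1)) (inW w')
      map_add' := fun a b => Matrix.ext fun d i => by simp
      map_smul' := fun c a => Matrix.ext fun d i => by simp }
  have h1 : ∀ r w w', T (XX F r) (inW w) (inW w') = ip w (L r w') := fun r w w' =>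
    fun_eq (((T (XX F r)).flip (inW w')).comp inW) w
  have h2 : ∀ (n : Lift F) r w, L (n.ψ • r) (n.γ * w * (mat F n.ψ)ᵀ) =
      (ch (n.ε r.1) : F) • (n.γ * L r w * (mat F n.ψ)ᵀ) := fun n r w => ip_ext fun u => by
    have := h.act n (XX F r) (inW (n.γᵀ * u * mat F n.ψ)) (inW w)
    rw [act_XX, act_inW, act_inW, map_smul, LinearMap.smul_apply, LinearMap.smul_apply, h1, h1,
      ip_mul n.γᵀ, transpose_transpose, Matrix.mul_assoc n.γᵀ, Lift.cancel n.orth, Matrix.mul_assoc u,
      mat_mul_transpose, Matrix.mul_one] at this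
    rw [ip_smul_right, ← this, smul_eq_mul, ch_mul_self']
  have h3 : ∀ r, ∃ N : MM F, ∀ w, L r w = rho F r.v * w * N := fun r => by
    obtain ⟨N, e⟩ := comm_all (L := (TT (rho F r.v) 1).comp (L r)) fun v hv w => by
      have := h2 (Lift.X F ⟨v, hv⟩) r w
      simp only [Lift.X, one_smul, mat_one, transpose_one, Matrix.mul_one] at this
      simp only [LinearMap.comp_apply, TT_apply, Matrix.mul_one, this, Matrix.mul_smul,
        ← Matrix.mul_assoc]
      rw [rho_comm hv r.mem, Matrix.smul_mul]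
    refine ⟨N, fun w => ?_⟩
    have := e w
    rw [LinearMap.comp_apply, TT_apply, Matrix.mul_one] at this
    rw [Matrix.mul_assoc, ← this, Lift.cancel (rho_sq r)]
  choose N hN using h3
  obtain ⟨p, q, e⟩ := fam (N := N) fun ψ r => by
    obtain ⟨n, rfl⟩ := lift_surj (F := F) ψ
    have : (mat F n.ψ)ᵀ * N (n.ψ • r) = N r * (mat F n.ψ)ᵀ := right_ext fun w => by
      have k := h2 n r w
      rw [hN, hN, ← Matrix.mul_assoc n.γ, ← Matrix.mul_assoc n.γ, n.conj r.1, Matrix.smul_mul,
        Matrix.smul_mul, Matrix.smul_mul, smul_smul, ch_mul_self, one_smul] at k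
      have k2 := congrArg (fun M => n.γᵀ * (rho F (n.ψ • r).v * M)) k
      simp only [Matrix.mul_assoc] at k2
      rwa [show ((n.ψ • r.1 : leechLattice) : V) = (n.ψ • r).v from rfl, Lift.cancel (rho_sq _),
        Lift.cancel (rho_sq _), Lift.cancel n.orth', Lift.cancel n.orth'] at k2
    rw [Matrix.mul_assoc, ← this, Lift.cancel (mat_mul_transpose _)]
  exact ⟨p, q, fun r w w' => by rw [h1, hN, e]⟩

theorem exists_N' : ∃ p q : F, ∀ s i j,
    T (symA (single i j 1)) (XX F s) (XX F s) = (p • 1 + q • Rm F s : MM F) i j := by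
  let f : Sh → MM F →ₗ[F] F := fun s => ((T.flip (XX F s)).flip (XX F s)).comp symA
  obtain ⟨p, q, e⟩ := fam (N := fun s => Matrix.of fun i j => f s (single i j 1)) fun ψ r => by
    obtain ⟨n, rfl⟩ := lift_surj (F := F) ψ
    ext i j
    have := h.act n (symA ((mat F n.ψ)ᵀ * single i j 1 * mat F n.ψ)) (XX F r) (XX F r)
    rw [act_XX, act_symA, map_smul, map_smul, LinearMap.smul_apply, smul_smul, ch_mul_self, one_smul,
      Matrix.mul_assoc (mat F n.ψ)ᵀ, Lift.cancel (mat_mul_transpose _), Matrix.mul_assoc,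
      mat_mul_transpose, Matrix.mul_one] at this
    refine this.trans ((fun_eq (f r) _).trans ?_)
    rw [transpose_mul, transpose_mul, transpose_transpose, transpose_single, Matrix.mul_assoc,
      Matrix.mul_assoc, trace_mul_comm, Matrix.mul_assoc, Matrix.mul_assoc, trace_single_mul,
      ← Matrix.mul_assoc, one_smul]
  exact ⟨p, q, fun s i j => congrFun (congrFun (e s) i) j⟩

end Inv

theorem rho_yk {i j : GolayPt} (b : ZMod 2) (k : GolayPt) :
    rho F (vA i j 0 b) * w2 (yk F k) = w2 (yk F k) := by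
  ext d l
  have : ∀ t : ZMod 2, (yk F k).1 (d + t • Om) l = (yk F k).1 d l := fun t => by
    rcases H79.zmod2_cases t with rfl | rfl
    · simp
    · rw [one_smul, (yk F k).2]
  simp only [rho_mul_apply, ec_vA, dl_vA, w2, of_apply, this]
  simp only [yk]
  split_ifs with a
  · rcases a.1 with rfl | rfl <;> rcases H79.zmod2_cases b with rfl | rfl <;> simp [z2_add_self]
  · simp

theorem ip_yk (k : GolayPt) (N : MM F) : ip (w2 (yk F k)) (w2 (yk F k) * N) = 2 * N k k := by
  have e : w2 (yk F k) = single 0 k 1 + single Om k 1 := by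
    ext d l
    simp only [w2, yk, of_apply, Matrix.add_apply, single_apply, or_and_right, eq_comm (a := d),
      eq_comm (a := l)]
    refine ite_or_of_not ?_
    rintro ⟨rfl, -⟩ ⟨a, -⟩
    exact absurd (congrFun (congrArg Subtype.val a) none) (by decide)
  have e2 : ∀ d, d = 0 ∨ d = Om → (w2 (yk F k) * N) d k = N k k := fun d a => by
    simp [mul_apply, w2, yk, a]
  nth_rewrite 1 [e]
  rw [ip_add_left, ip_single, ip_single, e2 _ (.inl rfl), e2 _ (.inr rfl), two_mul]

theorem pt01 : pt 0 ≠ pt 1 := by decide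

/-- an invariant trilinear form is determined by one value -/
theorem Inv.eq_zero' {T : B F →ₗ[F] B F →ₗ[F] B F →ₗ[F] F} (h : Inv T)
    (h0 : T (XX F r0) (inW (w2 (yk F (pt 2)))) (inW (w2 (yk F (pt 2)))) = 0) : T = 0 := by
  obtain ⟨p, q, e⟩ := h.exists_N
  obtain ⟨p', q', e'⟩ := h.exists_N'
  have h1 : ∀ b k, T (XX F (sA pt01 b)) (inW (w2 (yk F k))) (inW (w2 (yk F k))) =
      2 * (p + q * ((sA pt01 b).v k ^ 2 : ℤ)) := fun b k => by
    rw [e, show (sA pt01 b).v = vA (pt 0) (pt 1) 0 b from rfl, rho_yk, ip_yk]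
    simp [Rm, cv, vecMulVec_apply, sA, sq]
  have h2 : ∀ k, 2 * (p + q * ((sA pt01 0).v k ^ 2 : ℤ)) + 2 * (p + q * ((sA pt01 1).v k ^ 2 : ℤ)) =
      q' * ((sX k).v (pt 0) * (sX k).v (pt 1) : ℤ) := fun k => by
    have := h.tau (XX F (sA pt01 0) + XX F (sA pt01 1)) (inW (w2 (yk F k))) (inW (w2 (yk F k)))
    rw [tau_sA, tau_yk, e', map_add, LinearMap.add_apply, LinearMap.add_apply, h1, h1] at this
    rw [← this]
    simp [Rm, cv, vecMulVec_apply, pt01]
  have a0 := h2 (pt 0)
  have a2 := h2 (pt 2)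
  have a3 := (h1 1 (pt 2)).symm.trans h0
  have k : ∀ b, (sA pt01 b).v (pt 0) ^ 2 = 16 ∧ (sA pt01 b).v (pt 2) ^ 2 = 0 := by decide +kernel
  have k' : (sX (pt 0)).v (pt 0) * (sX (pt 0)).v (pt 1) = -3 ∧
      (sX (pt 2)).v (pt 0) * (sX (pt 2)).v (pt 1) = 1 := by decide +kernel
  simp only [k, k'] at a0 a2 a3
  push_cast at a0 a2 a3
  have hp : p = 0 := mul_left_cancel₀ two_ne (by linear_combination a3)
  have hq : q = 0 := mul_left_cancel₀ (nz 6 0) (by linear_combination a0 + 3 * a2 - 16 * hp)
  exact h.eq_zero fun w w' => by simp [e, hp, hq, ip]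

theorem g_uB (g : Mon F) : g.1 (uB F) = uB F := bil_ext fun c => by
  obtain ⟨c, rfl⟩ := g.1.surjective c
  rw [g.2.1, bil_comm, bil_comm (uB F), bil_uB_inv]

/-- the elements of trace zero form an irreducible module -/
theorem irr {U : Submodule F (B F)} (h : ∀ g ∈ GG F [], ∀ b ∈ U, g.1 b ∈ U) (hU : U ≤ V0 F) :
    U = ⊥ ∨ U = V0 F := by
  by_cases k : ∀ b ∈ U, b.w = 0
  · refine .inl (eq_bot_iff.2 fun b hb => bilF_nd.1 b fun c => ?_)
    refine (top_of_inv (K := (bilF F).orthogonal U) (fun g hg c hc b hb => ?_) (fun b hb => ?_)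
      fun w b hb => ?_).ge (Submodule.mem_top (x := c)) b hb
    · change bil b (g.1 c) = 0
      rw [← mon_inv g b, g.2.1]
      exact hc _ (h _ (inv_mem hg) b hb)
    · change bil b (uB F) = 0
      rw [bil_uB, show trace b.A = 0 from hU hb, mul_zero]
    · change bil b (inW w) = 0
      simp [bil, k b hb]
  push Not at k
  obtain ⟨b, hb, k⟩ := k
  have h1 : inW b.w ∈ U := by
    have := sub_mem hb (h _ (act_GG (Lift.z F)) b hb)
    rw [show Lift.act (Lift.z F) = zM F from rfl, zM_apply, sub_sub_cancel] at this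
    exact (U.smul_mem_iff two_ne).1 this
  have h2 : ∀ n : Lift F, ∀ w, inW w ∈ U → inW (n.γ * w * (mat F n.ψ)ᵀ) ∈ U := fun n w a =>
    act_inW n w ▸ h _ (act_GG n) _ a
  have h3 : ∀ P : Matrix C C F, inW (P * b.w) ∈ U := rho_span two_ne
    { carrier := {P : Matrix C C F | inW (P * b.w) ∈ U}
      add_mem' := fun a b => by
        simp only [Set.mem_ofPred_eq, Matrix.add_mul, map_add]; exact add_mem a b
      zero_mem' := by simp
      smul_mem' := fun c P a => by
        simp only [Set.mem_ofPred_eq, Matrix.smul_mul, map_smul]; exact U.smul_mem c a }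
    fun v hv => by simpa [Lift.X] using h2 (Lift.X F ⟨v, hv⟩) _ h1
  obtain ⟨d, i, k⟩ : ∃ d i, b.w d i ≠ 0 := by
    by_contra a
    push Not at a
    exact k (Matrix.ext a)
  have h4 := irr24
    { carrier := {v : GolayPt → F | ∀ t : C → F, inW (vecMulVec t v) ∈ U}
      add_mem' := fun a b t => by rw [vecMulVec_add, map_add]; exact add_mem (a t) (b t)
      zero_mem' := fun t => by
        rw [show vecMulVec t (0 : GolayPt → F) = (0 : WW F) from Matrix.ext fun _ _ => mul_zero _,
          map_zero]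
        exact U.zero_mem
      smul_mem' := fun c P a t => by rw [vecMulVec_smul, map_smul]; exact U.smul_mem c (a t) }
    (fun ψ v a t => by
      obtain ⟨n, rfl⟩ := lift_surj (F := F) ψ
      have := h2 n _ (a (n.γᵀ *ᵥ t))
      rwa [mul_vecMulVec, vecMulVec_mul, vecMul_transpose, mulVec_mulVec, n.orth, one_mulVec] at this)
    (v := b.w d) (fun t => by
      have := h3 (vecMulVec t (Pi.single d 1))
      rwa [vecMulVec_mul, single_one_vecMul] at this) k
  have h5 : ∀ w, inW w ∈ U := fun w => by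
    rw [matrix_eq_sum_single w]
    simp only [map_sum]
    refine U.sum_mem fun e _ => U.sum_mem fun j _ => ?_
    have := U.smul_mem (w e j) (h4.ge (Submodule.mem_top (x := Pi.single j 1)) (Pi.single e 1))
    rwa [← single_eq_single_vecMulVec_single, ← map_smul, smul_single, smul_eq_mul, mul_one] at this
  have h6 := top_of_inv (K := U ⊔ F ∙ uB F) (fun g hg c hc => by
    obtain ⟨y, hy, z, hz, rfl⟩ := Submodule.mem_sup.1 hc
    obtain ⟨a, rfl⟩ := Submodule.mem_span_singleton.1 hz
    rw [map_add, map_smul, g_uB]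
    exact add_mem (Submodule.mem_sup_left (h g hg y hy)) (Submodule.mem_sup_right hz))
    (Submodule.mem_sup_right (Submodule.mem_span_singleton_self _))
    fun w => Submodule.mem_sup_left (h5 w)
  refine .inr (le_antisymm hU fun c hc => ?_)
  obtain ⟨y, hy, z, hz, rfl⟩ := Submodule.mem_sup.1 (h6.ge (Submodule.mem_top (x := c)))
  obtain ⟨a, rfl⟩ := Submodule.mem_span_singleton.1 hz
  have e : trace (y.A + a • (1 : MM F)) = 0 := hc
  rw [trace_add, show trace y.A = 0 from hU hy, trace_smul, trace_one, card_pt, zero_add, smul_eq_mul,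
    mul_eq_zero_iff_right (by exact_mod_cast n24)] at e
  rwa [e, zero_smul, add_zero]

end H23.Np
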